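import Cfsg.Agent.Lib.H10.J3Model
import Cfsg.Agent.Lib.H10.BitSpan
import Cfsg.Agent.Lib.H6.SympCard

set_option autoImplicit false
set_option linter.unusedSectionVars false

/-! Vectors over the field with four elements coded by numbers; semilinear isometries in dimension 4. -/

namespace H10.F4Vec

open H10.BitPar H10.BitOrb H10.J3Model

/-- a numbering of the coordinates -/
structure Idx {ι : Type*} (m : ℕ) (k : ι → ℕ) : Prop where
  lt : ∀ i, k i < m
  inj : ∀ i j, k i = k j → i = j
  surj : ∀ n < m, ∃ i, k i = n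

variable {ι : Type*} [Fintype ι] {F : Type*} [Field F]

/-- the vector with the given code -/
def decV (k : ι → ℕ) (ω : F) (x : ℕ) : ι → F := fun z => bb ω (x.testBit (2 * k z)) (x.testBit (2 * k z + 1))

theorem codingV [Fintype F] (hF : Fintype.card F = 4) {ω : F} (h : Good ω) {m : ℕ} {kk : ι → ℕ} (hk : Idx m kk) :
    Coding (2 * m) (decV kk ω) where
  xor x y := by
    funext z
    show bb ω _ _ = bb ω _ _ + bb ω _ _
    rw [Nat.testBit_xor, Nat.testBit_xor, h.bb_xor]
  inj := by
    intro x y hx hy hxy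
    apply Nat.eq_of_testBit_eq
    intro k
    by_cases hk' : k < 2 * m
    · obtain ⟨z, hz⟩ := hk.surj (k / 2) (by omega)
      have h1 := congrFun hxy z
      have h2 := h.bb_inj h1
      rw [hz] at h2
      rcases Nat.mod_two_eq_zero_or_one k with hm | hm
      · rw [show 2 * (k / 2) = k by omega] at h2; exact h2.1
      · rw [show 2 * (k / 2) + 1 = k by omega] at h2; exact h2.2
    · rw [Nat.testBit_lt_two_pow (lt_of_lt_of_le hx (Nat.pow_le_pow_right (by norm_num) (by omega))),
        Nat.testBit_lt_two_pow (lt_of_lt_of_le hy (Nat.pow_le_pow_right (by norm_num) (by omega)))]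
  surj := by
    classical
    have hcardι : Fintype.card ι = m := by
      have hb : Function.Bijective (fun i : ι => (⟨kk i, hk.lt i⟩ : Fin m)) := by
        constructor
        · intro i j hij
          exact hk.inj i j (congrArg Fin.val hij)
        · rintro ⟨n, hn⟩
          obtain ⟨i, hi⟩ := hk.surj n hn
          exact ⟨i, Fin.ext hi⟩
      rw [Fintype.card_of_bijective hb, Fintype.card_fin]
    have hcV : Nat.card (ι → F) = 2 ^ (2 * m) := by
      rw [Nat.card_eq_fintype_card, Fintype.card_fun, hF, hcardι, pow_mul]; norm_num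
    have hinj : Function.Injective (fun x : Fin (2 ^ (2 * m)) => decV kk ω x.1) := by
      rintro ⟨x, hx⟩ ⟨y, hy⟩ hxy
      have hxy' : decV kk ω x = decV kk ω y := hxy
      congr 1
      apply Nat.eq_of_testBit_eq
      intro k
      by_cases hk' : k < 2 * m
      · obtain ⟨z, hz⟩ := hk.surj (k / 2) (by omega)
        have h1 := congrFun hxy' z
        have h2 := h.bb_inj h1
        rw [hz] at h2
        rcases Nat.mod_two_eq_zero_or_one k with hm | hm
        · rw [show 2 * (k / 2) = k by omega] at h2; exact h2.1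
        · rw [show 2 * (k / 2) + 1 = k by omega] at h2; exact h2.2
      · rw [Nat.testBit_lt_two_pow (lt_of_lt_of_le hx (Nat.pow_le_pow_right (by norm_num) (by omega))),
          Nat.testBit_lt_two_pow (lt_of_lt_of_le hy (Nat.pow_le_pow_right (by norm_num) (by omega)))]
    have : Finite (ι → F) := Finite.of_fintype _
    have hbij := (Nat.bijective_iff_injective_and_card (fun x : Fin (2 ^ (2 * m)) => decV kk ω x.1)).2
      ⟨hinj, by rw [hcV, Nat.card_eq_fintype_card, Fintype.card_fin]⟩
    intro v
    obtain ⟨x, hx⟩ := hbij.2 v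
    exact ⟨x.1, x.2, hx⟩

/-! ### dimension 4 -/

abbrev V4 (F : Type*) := Fin 2 ⊕ Fin 2 → F

def k4 : Fin 2 ⊕ Fin 2 → ℕ := Sum.elim (fun i => i.val) (fun i => 2 + i.val)

theorem idx4 : Idx 4 k4 where
  lt := by decide
  inj := by decide
  surj := by decide

def dec4 (ω : F) : ℕ → V4 F := decV k4 ω

theorem coding4 [Fintype F] (hF : Fintype.card F = 4) {ω : F} (h : Good ω) : Coding 8 (dec4 ω) :=
  codingV hF h idx4

/-- the alternating form -/
def fm (u v : V4 F) : F := u (.inl 0) * v (.inr 0) + u (.inr 0) * v (.inl 0) + u (.inl 1) * v (.inr 1) + u (.inr 1) * v (.inl 1)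

def mB (a b c d : Bool) : Bool × Bool := ((a && c) ^^ (b && d), (a && d) ^^ ((b && c) ^^ (b && d)))

theorem bb_mul {ω : F} (h : Good ω) (a b c d : Bool) : bb ω a b * bb ω c d = bb ω (mB a b c d).1 (mB a b c d).2 := by
  have h2 : ω * ω = ω + 1 := by rw [← pow_two, h.sq]
  have h3 := h.add_self ω
  have h4 := h.add_self 1
  cases a <;> cases b <;> cases c <;> cases d <;> simp [bb, mB, h2, mul_add, add_mul]
  all_goals first
    | linear_combination h3
    | linear_combination -h3
    | linear_combination h4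
    | linear_combination -h4
    | linear_combination h3 + h4
    | linear_combination -h3 - h4
    | linear_combination h3 - h4
    | linear_combination -h3 + h4
    | ring

def addB (p q : Bool × Bool) : Bool × Bool := (p.1 ^^ q.1, p.2 ^^ q.2)

def fB (x y : ℕ) : Bool × Bool :=
  addB (addB (addB (mB (x.testBit 0) (x.testBit 1) (y.testBit 4) (y.testBit 5))
    (mB (x.testBit 4) (x.testBit 5) (y.testBit 0) (y.testBit 1)))
    (mB (x.testBit 2) (x.testBit 3) (y.testBit 6) (y.testBit 7)))
    (mB (x.testBit 6) (x.testBit 7) (y.testBit 2) (y.testBit 3))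

theorem fm_dec {ω : F} (h : Good ω) (x y : ℕ) : fm (dec4 ω x) (dec4 ω y) = bb ω (fB x y).1 (fB x y).2 := by
  unfold fm fB addB
  simp only [h.bb_xor]
  rw [← bb_mul h, ← bb_mul h, ← bb_mul h, ← bb_mul h]
  rfl

theorem fm_add_left (u u' v : V4 F) : fm (u + u') v = fm u v + fm u' v := by
  unfold fm; simp only [Pi.add_apply]; ring
theorem fm_add_right (u v v' : V4 F) : fm u (v + v') = fm u v + fm u v' := by
  unfold fm; simp only [Pi.add_apply]; ring
theorem fm_smul_left (c : F) (u v : V4 F) : fm (c • u) v = c * fm u v := by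
  unfold fm; simp only [Pi.smul_apply, smul_eq_mul]; ring
theorem fm_smul_right (c : F) (u v : V4 F) : fm u (c • v) = c * fm u v := by
  unfold fm; simp only [Pi.smul_apply, smul_eq_mul]; ring

/-- the field automorphism -/
def sF (e : Bool) (c : F) : F := if e then c ^ 2 else c

theorem sF_add {ω : F} (h : Good ω) (e : Bool) (a b : F) : sF e (a + b) = sF e a + sF e b := by
  cases e
  · rfl
  · simp only [sF, if_true]
    have := h.two
    linear_combination a * b * this

theorem sF_mul (e : Bool) (a b : F) : sF e (a * b) = sF e a * sF e b := by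
  cases e
  · rfl
  · simp only [sF, if_true]; ring

def sB (e : Bool) (p : Bool × Bool) : Bool × Bool := cond e (p.1 ^^ p.2, p.2) p

theorem sF_bb {ω : F} (h : Good ω) (e : Bool) (p : Bool × Bool) : sF e (bb ω p.1 p.2) = bb ω (sB e p).1 (sB e p).2 := by
  obtain ⟨p, q⟩ := p
  have h1 := h.sq
  have h2 := h.two
  cases e
  · rfl
  · cases p <;> cases q <;> simp [sF, sB, bb, h1]
    · ring
    · linear_combination ω * h2 + h1 + h2

theorem sF_sF {ω : F} (h : Good ω) (e : Bool) (a : F) : sF e (sF e a) = a := by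
  obtain ⟨p, q, rfl⟩ := h.surj a
  rw [sF_bb h e (p, q), sF_bb h e]
  cases e <;> cases p <;> cases q <;> rfl

theorem sF_comp {ω : F} (h : Good ω) (e e' : Bool) (a : F) : sF e (sF e' a) = sF (e ^^ e') a := by
  cases e <;> cases e'
  · rfl
  · rfl
  · rfl
  · exact sF_sF h true a

/-- semilinear isometries -/
structure SLin (M : Equiv.Perm (V4 F)) (e : Bool) : Prop where
  add : ∀ u v, M (u + v) = M u + M v
  smul : ∀ (c : F) v, M (c • v) = sF e c • M v
  fm : ∀ u v, fm (M u) (M v) = sF e (fm u v)

theorem SLin.one : SLin (1 : Equiv.Perm (V4 F)) false := ⟨fun _ _ => rfl, fun _ _ => rfl, fun _ _ => rfl⟩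

theorem SLin.mul {ω : F} (h : Good ω) {M N : Equiv.Perm (V4 F)} {e e' : Bool} (hM : SLin M e) (hN : SLin N e') :
    SLin (M * N) (e ^^ e') := by
  refine ⟨fun u v => ?_, fun c v => ?_, fun u v => ?_⟩
  · show M (N (u + v)) = M (N u) + M (N v)
    rw [hN.add, hM.add]
  · show M (N (c • v)) = _ • M (N v)
    rw [hN.smul, hM.smul, sF_comp h]
  · show F4Vec.fm (M (N u)) (M (N v)) = _
    rw [hM.fm, hN.fm, sF_comp h]

theorem SLin.inv {ω : F} (h : Good ω) {M : Equiv.Perm (V4 F)} {e : Bool} (hM : SLin M e) : SLin M⁻¹ e := by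
  refine ⟨fun u v => ?_, fun c v => ?_, fun u v => ?_⟩
  · apply M.injective
    rw [hM.add]
    show M (M.symm _) = M (M.symm u) + M (M.symm v)
    simp only [Equiv.apply_symm_apply]
  · apply M.injective
    rw [hM.smul, sF_sF h]
    show M (M.symm _) = c • M (M.symm v)
    simp only [Equiv.apply_symm_apply]
  · have h1 := hM.fm (M⁻¹ u) (M⁻¹ v)
    have h2 : ∀ w, M (M⁻¹ w) = w := fun w => M.apply_symm_apply w
    rw [h2, h2] at h1
    rw [h1, sF_sF h]

theorem act_add {n : ℕ} {V : Type*} [AddCommGroup V] {dec : ℕ → V} (hc : Coding n dec) {l : List (ℕ × ℕ)}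
    (hl : okOps n l = true) (u v : V) : act hc l (u + v) = act hc l u + act hc l v := by
  obtain ⟨x, hx, rfl⟩ := hc.surj u
  obtain ⟨y, hy, rfl⟩ := hc.surj v
  rw [← hc.xor, act_dec hc hl (Nat.xor_lt_two_pow hx hy), runF_xor, hc.xor, act_dec hc hl hx, act_dec hc hl hy]

/-- multiplication by `ω` -/
def os : List (ℕ × ℕ) := [(1, 0), (0, 1), (3, 2), (2, 3), (5, 4), (4, 5), (7, 6), (6, 7)]

def chkOs : Bool := (List.range 4).all fun i =>
  cond (Nat.beq (runF os (Nat.pow 2 (2 * i))) (Nat.pow 2 (2 * i + 1)))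
    (Nat.beq (runF os (Nat.pow 2 (2 * i + 1))) (Nat.pow 2 (2 * i) + Nat.pow 2 (2 * i + 1))) false

theorem ok_os : okOps 8 os = true := by decide +kernel

/-- check of a generator -/
def chkS (e : Bool) (l : List (ℕ × ℕ)) : Bool :=
  cond (okOps 8 l) (cond (sameOps 8 (os ++ l) (l ++ cond e (os ++ os) os))
    ((List.range 8).all fun i => (List.range 8).all fun j =>
      (fB (runF l (2 ^ i)) (runF l (2 ^ j)) == sB e (fB (2 ^ i) (2 ^ j)))) false) false

section
variable [Fintype F] (hF : Fintype.card F = 4) {ω : F} (h : Good ω)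

theorem act_os (v : V4 F) : act (coding4 hF h) os v = ω • v := by
  have hc := coding4 hF h
  obtain ⟨x, hx, rfl⟩ := hc.surj v
  rw [act_dec hc ok_os hx]
  have key : ∀ x < 2 ^ 8, ∀ i : Fin 2 ⊕ Fin 2, (runF os x).testBit (2 * k4 i) = x.testBit (2 * k4 i + 1) ∧
      (runF os x).testBit (2 * k4 i + 1) = (x.testBit (2 * k4 i) ^^ x.testBit (2 * k4 i + 1)) := by
    decide +kernel
  funext i
  obtain ⟨h1, h2⟩ := key x hx i
  show bb ω _ _ = ω * bb ω _ _
  rw [h1, h2, mul_comm ω, h.omega_mul]

theorem slin_of_chk {e : Bool} {l : List (ℕ × ℕ)} (hl : chkS e l = true) : SLin (act (coding4 hF h) l) e := by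
  have hc := coding4 hF h
  unfold chkS at hl
  obtain ⟨h1, hl⟩ := H10.J3Order.cond_tt hl
  obtain ⟨h2, h3⟩ := H10.J3Order.cond_tt hl
  have hadd := act_add hc h1
  have hω : ∀ v, act hc l (ω • v) = sF e ω • act hc l v := by
    intro v
    have hos2 : okOps 8 (cond e (os ++ os) os) = true := by
      cases e
      · exact ok_os
      · exact okOps_append ok_os ok_os
    have h4 : act hc (os ++ l) = act hc (l ++ cond e (os ++ os) os) :=
      act_eq_of_sameOps hc (okOps_append ok_os h1) (okOps_append h1 hos2) h2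
    rw [act_append hc ok_os h1, act_append hc h1 hos2] at h4
    have h5 := congrArg (fun g : Equiv.Perm (V4 F) => g v) h4
    have h6 : act hc l (act hc os v) = act hc (cond e (os ++ os) os) (act hc l v) := h5
    rw [act_os hF h] at h6
    rw [h6]
    cases e
    · exact act_os hF h _
    · have h7 : act hc (cond true (os ++ os) os) = act hc os * act hc os := act_append hc ok_os ok_os
      rw [h7]
      show act hc os (act hc os (act hc l v)) = _
      rw [act_os hF h, act_os hF h, smul_smul]
      simp only [sF, if_true, pow_two]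
  refine ⟨hadd, ?_, ?_⟩
  · intro c v
    obtain ⟨p, q, rfl⟩ := h.surj c
    have h0 : act hc l 0 = 0 := by
      have := hadd 0 0
      rw [add_zero] at this
      have h7 : act hc l 0 + 0 = act hc l 0 + act hc l 0 := by rw [add_zero]; exact this
      exact (add_left_cancel h7).symm
    have hs0 : sF e (0 : F) = 0 := by cases e <;> simp [sF]
    have hs1 : sF e (1 : F) = 1 := by cases e <;> simp [sF]
    cases p <;> cases q
    · simp only [bb, if_false, add_zero, Bool.false_eq_true, zero_smul, h0, hs0]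
    · simp only [bb, if_false, if_true, zero_add, Bool.false_eq_true, hω]
    · simp only [bb, if_false, if_true, add_zero, Bool.false_eq_true, one_smul, hs1]
    · simp only [bb, if_true]
      rw [add_smul, one_smul, hadd, hω, sF_add h, hs1, add_smul, one_smul]
  · -- biadditivity
    have hb : ∀ i < 8, ∀ j < 8, fm (act hc l (dec4 ω (2 ^ i))) (act hc l (dec4 ω (2 ^ j))) =
        sF e (fm (dec4 ω (2 ^ i)) (dec4 ω (2 ^ j))) := by
      intro i hi j hj
      have hi' : (2 : ℕ) ^ i < 2 ^ 8 := Nat.pow_lt_pow_right (by norm_num) hi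
      have hj' : (2 : ℕ) ^ j < 2 ^ 8 := Nat.pow_lt_pow_right (by norm_num) hj
      rw [act_dec hc h1 hi', act_dec hc h1 hj', fm_dec h, fm_dec h, sF_bb h]
      rw [List.all_eq_true] at h3
      have h4 := h3 i (List.mem_range.2 hi)
      rw [List.all_eq_true] at h4
      have h5 := h4 j (List.mem_range.2 hj)
      rw [beq_iff_eq] at h5
      rw [h5]
    have hz : ∀ w : V4 F, fm 0 w = 0 := by intro w; simp [fm]
    have hz' : ∀ w : V4 F, fm w 0 = 0 := by intro w; simp [fm]
    have hs0 : sF e (0 : F) = 0 := by cases e <;> simp [sF]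
    have h0 : act hc l 0 = 0 := by
      have := hadd 0 0
      rw [add_zero] at this
      have h7 : act hc l 0 + 0 = act hc l 0 + act hc l 0 := by rw [add_zero]; exact this
      exact (add_left_cancel h7).symm
    have hneg : ∀ w : V4 F, -w = w := by
      intro w
      rw [neg_eq_iff_add_eq_zero]; exact add_self hc w
    have hj : ∀ j < 8, ∀ u, fm (act hc l u) (act hc l (dec4 ω (2 ^ j))) = sF e (fm u (dec4 ω (2 ^ j))) := by
      intro j hj u
      have hu : u ∈ AddSubgroup.closure {v | ∃ k < 8, v = dec4 ω (2 ^ k)} := by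
        rw [closure_basis hc]; trivial
      induction hu using AddSubgroup.closure_induction with
      | mem x hx => obtain ⟨i, hi, rfl⟩ := hx; exact hb i hi j hj
      | zero => rw [h0, hz, hz, hs0]
      | add x y _ _ hx hy => rw [hadd, fm_add_left, fm_add_left, hx, hy, sF_add h]
      | neg x _ hx => rw [hneg]; exact hx
    intro u v
    have hv : v ∈ AddSubgroup.closure {v | ∃ k < 8, v = dec4 ω (2 ^ k)} := by
      rw [closure_basis hc]; trivial
    induction hv using AddSubgroup.closure_induction with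
    | mem x hx => obtain ⟨i, hi, rfl⟩ := hx; exact hj i hi u
    | zero => rw [h0, hz', hz', hs0]
    | add x y _ _ hx hy => rw [hadd, fm_add_right, fm_add_right, hx, hy, sF_add h]
    | neg x _ hx => rw [hneg]; exact hx

end

/-! ### linear isometries are symplectic matrices -/

/-- the action of the symplectic group -/
def spPerm (F : Type*) [Field F] : Matrix.symplecticGroup (Fin 2) F →* Equiv.Perm (V4 F) where
  toFun g :=
    { toFun := fun v => g.1.mulVec v
      invFun := fun v => (g⁻¹).1.mulVec v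
      left_inv := fun v => by
        show (g⁻¹).1.mulVec (g.1.mulVec v) = v
        have h1 : (g⁻¹).1 * g.1 = 1 := congrArg Subtype.val (inv_mul_cancel g)
        rw [Matrix.mulVec_mulVec, h1, Matrix.one_mulVec]
      right_inv := fun v => by
        show g.1.mulVec ((g⁻¹).1.mulVec v) = v
        have h1 : g.1 * (g⁻¹).1 = 1 := congrArg Subtype.val (mul_inv_cancel g)
        rw [Matrix.mulVec_mulVec, h1, Matrix.one_mulVec] }
  map_one' := by
    ext v : 1
    exact Matrix.one_mulVec v
  map_mul' g h := by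
    ext v : 1
    exact (Matrix.mulVec_mulVec v g.1 h.1).symm

theorem spPerm_injective : Function.Injective (spPerm F) := by
  intro g h e
  apply Subtype.ext
  apply Matrix.ext_of_mulVec_single
  intro i
  exact congrFun (congrArg DFunLike.coe e) (Pi.single i 1)

theorem mem_spPerm {ω : F} (h : Good ω) {M : Equiv.Perm (V4 F)} (hM : SLin M false) : M ∈ (spPerm F).range := by
  let L : V4 F →ₗ[F] V4 F := { toFun := M, map_add' := hM.add, map_smul' := hM.smul }
  let A : Matrix (Fin 2 ⊕ Fin 2) (Fin 2 ⊕ Fin 2) F := LinearMap.toMatrix' L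
  have hA : ∀ v, A.mulVec v = M v := fun v => LinearMap.toMatrix'_mulVec L v
  have h2 : ∀ a : F, -a = a := by
    intro a
    rw [neg_eq_iff_add_eq_zero]; exact h.add_self a
  have hf : ∀ u v : V4 F, u ⬝ᵥ (Matrix.J (Fin 2) F).mulVec v = fm u v := by
    intro u v
    simp only [Matrix.J, Matrix.mulVec, dotProduct, Fintype.sum_sum_type, Fin.sum_univ_two, Matrix.fromBlocks_apply₁₁,
      Matrix.fromBlocks_apply₁₂, Matrix.fromBlocks_apply₂₁, Matrix.fromBlocks_apply₂₂, Matrix.zero_apply, Matrix.neg_apply,
      Matrix.one_apply, fm]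
    simp [h2]
    ring
  have hmem : A ∈ Matrix.symplecticGroup (Fin 2) F := by
    rw [SymplecticGroup.mem_iff']
    ext i j
    have e1 : (A.transpose * Matrix.J (Fin 2) F * A) i j = (A.mulVec (Pi.single i 1)) ⬝ᵥ (Matrix.J (Fin 2) F).mulVec (A.mulVec (Pi.single j 1)) := by
      rw [Matrix.mul_assoc, Matrix.mul_apply]
      rw [Matrix.mulVec_mulVec]
      simp only [Matrix.mulVec_single_one, dotProduct, Matrix.transpose_apply, Matrix.col_apply]
    have e2 : (Matrix.J (Fin 2) F) i j = (Pi.single i 1 : V4 F) ⬝ᵥ (Matrix.J (Fin 2) F).mulVec (Pi.single j 1) := by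
      simp only [Matrix.mulVec_single_one, single_one_dotProduct, Matrix.col_apply]
    rw [e1, e2, hf, hf, hA, hA, hM.fm]
    rfl
  refine ⟨⟨A, hmem⟩, ?_⟩
  ext1 v
  exact hA v

end H10.F4Vec
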