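import Cfsg.Agent.Lib.H10.FiThree
import Cfsg.Agent.Lib.H35.FiClass22
import Cfsg.Agent.Lib.H34.U62Fin

set_option autoImplicit false

/-! Fi22 as a 3-transposition group. -/

namespace H10.FiThree

open Cfsg H35.Fi22Main H34.U62 H34.Fi22W
open H35.TCFi22A (Lt)

theorem HH_eq22 : HH = HS := by
  unfold HH HS
  congr 1
  have hw : wG = ([Lt.a, .b, .c, .d, .e, .h, .a, .b, .c, .d, .e, .h, .a, .b, .c, .d, .e, .h, .a, .b, .c, .d, .e, .h,
      .a, .b, .c, .d, .e, .h].map gP).prod := rfl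
  ext y
  constructor
  · rintro ⟨i, rfl⟩
    fin_cases i
    · exact ⟨[.a], by decide, by simp [xg]⟩
    · exact ⟨[.c], by decide, by simp [xg]⟩
    · exact ⟨[.d], by decide, by simp [xg]⟩
    · exact ⟨[.e], by decide, by simp [xg]⟩
    · exact ⟨[.f], by decide, by simp [xg]⟩
    · exact ⟨[.g], by decide, by simp [xg]⟩
    · exact ⟨[.h], by decide, by simp [xg]⟩
    · exact ⟨[.i], by decide, by simp [xg]⟩
    · exact ⟨[.a, .b, .c, .d, .e, .h, .a, .b, .c, .d, .e, .h, .a, .b, .c, .d, .e, .h, .a, .b, .c, .d, .e, .h,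
      .a, .b, .c, .d, .e, .h], by decide, hw⟩
  · rintro ⟨w, hw', rfl⟩
    simp only [H35.TCFi22A.subs, List.mem_cons, List.mem_nil_iff, or_false] at hw'
    rcases hw' with rfl | rfl | rfl | rfl | rfl | rfl | rfl | rfl | rfl
    · exact ⟨0, by simp [xg]⟩
    · exact ⟨1, by simp [xg]⟩
    · exact ⟨2, by simp [xg]⟩
    · exact ⟨3, by simp [xg]⟩
    · exact ⟨4, by simp [xg]⟩
    · exact ⟨5, by simp [xg]⟩
    · exact ⟨6, by simp [xg]⟩
    · exact ⟨7, by simp [xg]⟩
    · exact ⟨8, hw⟩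

theorem a_ne22 : gP .a ≠ 1 := by
  intro h
  have h1 := H35.FiClass22.centralizer_a
  rw [h] at h1
  have h2 : (Subgroup.centralizer ({1} : Set Cfsg.Spor.Fi22)) = ⊤ := by
    rw [eq_top_iff]
    intro x _
    rw [Subgroup.mem_centralizer_iff]
    intro s hs
    rw [Set.mem_singleton_iff.1 hs, one_mul, mul_one]
  rw [h2] at h1
  have h3 := H35.FiClass22.HS_index
  rw [← h1, Subgroup.index_top] at h3
  norm_num at h3

theorem class22 : IsThreeTranspositionClass (conjugatesOf (gP .a)) := by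
  refine transClass (H35.FiClass22.sqP .a) a_ne22 (fun x hx y hy => H35.FiClass22.D_three hx hy) ?_
  rw [eq_top_iff, ← genP, Subgroup.closure_le]
  rintro _ ⟨x, rfl⟩
  exact Subgroup.subset_closure (H35.FiClass22.letter_mem x)

theorem main22 : ∃ (G : Type) (_ : Group G) (_ : Finite G), Cfsg.IsFi22 G ∧ ∃ D : Set G, Cfsg.IsThreeTranspositionClass D ∧ Nat.card D = 3510 ∧ ∀ d ∈ D, ∃ (F : Type) (_ : Field F) (_ : Fintype F), Fintype.card F = 4 ∧ Cfsg.IsNonsplitDoubleCover (Subgroup.centralizer ({d} : Set G)) (Cfsg.PSU 6 F 2) := by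
  refine ⟨Cfsg.Spor.Fi22, inferInstance, fin, ⟨simple, card_inj.1⟩, conjugatesOf (gP .a), class22, ?_, ?_⟩
  · rw [Nat.card_coe_set_eq]; exact H35.FiClass22.D_card
  · intro d hd
    refine ⟨H17.F4, inferInstance, inferInstance, rfl, ?_⟩
    obtain ⟨e⟩ := centralizer_conj (show IsConj (gP .a) d from hd)
    refine nsdc_congr e ?_
    rw [H35.FiClass22.centralizer_a, ← HH_eq22]
    exact H34.U62.main

end H10.FiThree
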