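import Cfsg.Agent.Lib.H10.HNAlt2

/-!
# From an abstract group with a subgroup of given index to a permutation group
-/

set_option autoImplicit false

namespace H10.HNAlt

open Equiv Equiv.Perm H19.Carm

theorem perm_of_sub {G : Type} [Group G] [Finite G] (hs : IsSimpleGroup G) (K : Subgroup G) (n : ℕ)
    (hn : K.index = n + 2) :
    ∃ H : Subgroup (Equiv.Perm (Fin (n + 2))), Nonempty (G ≃* H) ∧ MulAction.IsPretransitive H (Fin (n + 2)) ∧
      Nonempty (MulAction.stabilizer H (0 : Fin (n + 2)) ≃* K) := by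
  have hcard : Nat.card (G ⧸ K) = Nat.card (Fin (n + 2)) := by
    rw [Nat.card_fin]; exact hn
  haveI : Finite (G ⧸ K) := inferInstance
  obtain ⟨e0⟩ : Nonempty (G ⧸ K ≃ Fin (n + 2)) := Finite.card_eq.1 hcard
  let e : G ⧸ K ≃ Fin (n + 2) := e0.trans (Equiv.swap (e0 ((1 : G) : G ⧸ K)) 0)
  have he : e ((1 : G) : G ⧸ K) = 0 := by
    show Equiv.swap (e0 ((1 : G) : G ⧸ K)) 0 (e0 ((1 : G) : G ⧸ K)) = 0
    exact Equiv.swap_apply_left _ _
  let ρ : G →* Equiv.Perm (Fin (n + 2)) := (e.permCongrHom.toMonoidHom).comp (MulAction.toPermHom G (G ⧸ K))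
  have hρ : ∀ (g : G) (i : Fin (n + 2)), ρ g i = e (g • e.symm i) := fun g i => rfl
  have hker : ρ.ker = ⊥ := by
    rcases hs.eq_bot_or_eq_top_of_normal ρ.ker inferInstance with h | h
    · exact h
    · exfalso
      have : K = ⊤ := by
        rw [eq_top_iff]
        intro g _
        have hg : g ∈ ρ.ker := by rw [h]; trivial
        have h1 : ρ g = 1 := hg
        have h2 : ρ g 0 = 0 := by rw [h1]; rfl
        rw [hρ, ← he, e.symm_apply_apply] at h2
        have h3 := e.injective h2
        have h4 : ((g * 1 : G) : G ⧸ K) = ((1 : G) : G ⧸ K) := h3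
        rw [mul_one] at h4
        have := QuotientGroup.eq.1 h4
        rw [mul_one] at this
        exact (Subgroup.inv_mem_iff K).1 this
      rw [this, Subgroup.index_top] at hn
      omega
  have hinj : Function.Injective ρ := (MonoidHom.ker_eq_bot_iff ρ).1 hker
  have eG : G ≃* ρ.range := MonoidHom.ofInjective hinj
  have hpre : MulAction.IsPretransitive ρ.range (Fin (n + 2)) := by
    refine ⟨fun i j => ?_⟩
    obtain ⟨g, hg⟩ := MulAction.exists_smul_eq G (e.symm i) (e.symm j)
    refine ⟨⟨ρ g, g, rfl⟩, ?_⟩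
    show ρ g i = j
    rw [hρ, hg, e.apply_symm_apply]
  refine ⟨ρ.range, ⟨eG⟩, hpre, ?_⟩
  let f : K →* MulAction.stabilizer ρ.range (0 : Fin (n + 2)) :=
    { toFun := fun k => ⟨⟨ρ k, k, rfl⟩, by
        show ρ k 0 = 0
        rw [hρ, ← he, e.symm_apply_apply]
        congr 1
        show (((k : G) * 1 : G) : G ⧸ K) = ((1 : G) : G ⧸ K)
        rw [mul_one]
        exact QuotientGroup.eq.2 (by rw [mul_one]; exact K.inv_mem k.2)⟩
      map_one' := by apply Subtype.ext; apply Subtype.ext; exact map_one ρ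
      map_mul' := fun a b => by apply Subtype.ext; apply Subtype.ext; exact map_mul ρ _ _ }
  have hf : Function.Bijective f := by
    constructor
    · intro a b hab
      have : ρ a = ρ b := congrArg (fun z => ((z : MulAction.stabilizer ρ.range (0 : Fin (n + 2))) : ρ.range).1) hab
      exact Subtype.ext (hinj this)
    · rintro ⟨⟨_, g, rfl⟩, hg⟩
      have h2 : ρ g 0 = 0 := hg
      rw [hρ, ← he, e.symm_apply_apply] at h2
      have h3 := e.injective h2
      have h4 : ((g * 1 : G) : G ⧸ K) = ((1 : G) : G ⧸ K) := h3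
      rw [mul_one] at h4
      have := QuotientGroup.eq.1 h4
      rw [mul_one] at this
      exact ⟨⟨g, (Subgroup.inv_mem_iff K).1 this⟩, rfl⟩
  exact ⟨(MulEquiv.ofBijective f hf).symm⟩

/-- the final assembly for `S0463` -/
theorem final {G : Type} [Group G] (hs : IsSimpleGroup G) (hc : Nat.card G = 273030912000000)
    (φ : alternatingGroup (Fin 12) →* G) (hφ : φ ≠ 1) :
    ∃ H : Subgroup (Equiv.Perm (Fin 1140000)), (IsSimpleGroup H ∧ Nat.card H = 273030912000000) ∧
      MulAction.IsPretransitive H (Fin 1140000) ∧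
      Nonempty (MulAction.stabilizer H (0 : Fin 1140000) ≃* alternatingGroup (Fin 12)) := by
  haveI : Finite G := (Nat.card_ne_zero.1 (by rw [hc]; norm_num)).2
  have hA : IsSimpleGroup (alternatingGroup (Fin 12)) := alternatingGroup.isSimpleGroup (by
    rw [Nat.card_eq_fintype_card, Fintype.card_fin]; norm_num)
  have hinj : Function.Injective φ := by
    rw [← MonoidHom.ker_eq_bot_iff]
    rcases hA.eq_bot_or_eq_top_of_normal φ.ker inferInstance with h | h
    · exact h
    · exfalso
      apply hφ
      ext a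
      have : a ∈ φ.ker := by rw [h]; trivial
      exact this
  have eA : alternatingGroup (Fin 12) ≃* φ.range := MonoidHom.ofInjective hinj
  have hcK : Nat.card φ.range = 239500800 := by
    rw [← Nat.card_congr eA.toEquiv]
    have h1 : 2 * Nat.card (alternatingGroup (Fin 12)) = (12).factorial := by
      rw [Nat.card_eq_fintype_card, two_mul_card_alternatingGroup, Fintype.card_perm, Fintype.card_fin]
    have h2 : (12).factorial = 479001600 := by decide
    omega
  have hidx : φ.range.index = 1139998 + 2 := by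
    have := φ.range.card_mul_index
    rw [hc, hcK] at this
    omega
  obtain ⟨H, ⟨e⟩, ht, ⟨es⟩⟩ := perm_of_sub hs φ.range 1139998 hidx
  refine ⟨H, ⟨?_, ?_⟩, ht, ⟨es.trans eA.symm⟩⟩
  · haveI := hs
    haveI : Nontrivial H := e.symm.toEquiv.nontrivial
    exact IsSimpleGroup.isSimpleGroup_of_surjective e.toMonoidHom e.surjective
  · rw [← Nat.card_congr e.toEquiv]; exact hc

end H10.HNAlt
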