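import Cfsg.Agent.Lib.H10.HNAlt3
import Cfsg.Agent.Lib.H10.NHN.Hom
import Cfsg.Agent.Lib.H10.NHN.R_w_R
import Cfsg.Agent.Lib.H10.NHN.R_w_x0g
import Cfsg.Agent.Lib.H10.NHN.R_w_x1g
import Cfsg.Agent.Lib.H10.NHN.R_w_x03
import Cfsg.Agent.Lib.H10.NHN.R_w_x13
import Cfsg.Agent.Lib.H10.NHN.R_w_v3
import Cfsg.Agent.Lib.H10.NHN.R_w_x01
import Cfsg.Agent.Lib.H10.NHN.R_w_x0v
import Cfsg.Agent.Lib.H10.NHN.R_w_x1v
import Cfsg.Agent.Lib.H10.NHN.R_w_tc
import Cfsg.Agent.Lib.H10.NHN.R_w_ts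
import Cfsg.Agent.Lib.H10.NHN.R_w_tu
import Cfsg.Agent.Lib.H2.HN.HNTriv
import Cfsg.Agent.Lib.H2.HN.Rho

/-!
# `A₁₂` inside the presented Harada–Norton group
-/

set_option autoImplicit false
set_option maxRecDepth 100000
set_option linter.all false

namespace H10.HNF

open H10.HNAlt H10.NHN Cfsg.Spor
open H19.Carm

/-- letters of helper2's words -/
def cv : Lt → Fin 3 × Bool
  | .x => (0, true) | .X => (0, false) | .y => (1, true) | .Y => (1, false) | .z => (2, true)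
  | .t => (2, true) | .T => (2, true)

/-- no `t` -/
def nt : Lt → Bool
  | .t => false | .T => false | _ => true

theorem ev_cv {G : Type} [Group G] (x y z t : G) (w : List Lt) (h : w.all nt = true) :
    ev x y z t w = H35.Stem.ev ![x, y, z] (w.map cv) := by
  unfold ev H35.Stem.ev
  rw [List.map_map]
  congr 1
  apply List.map_congr_left
  intro l hl
  have hn : nt l = true := List.all_eq_true.1 h l hl
  cases l
  · rfl
  · rfl
  · rfl
  · rfl
  · rfl
  · exact absurd hn (by decide)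
  · exact absurd hn (by decide)

/-- the words in `x, y, z` -/
def rlN : List (List Lt) :=
  [w2 wG, wS ++ wS ++ wS ++ wS ++ wS, w3 wU, w2 (wU ++ wi wS ++ wU ++ wS),
    w2 (wU ++ wi wS ++ wi wS ++ wU ++ wS ++ wS), w3 wQ, w2 (wQ ++ wU), wc wQ wS,
    wc wZ wC, wc wZ wS, wc wZ wU]

/-- the words involving `t` -/
def rlT : List (List Lt) :=
  [wc wT wC, wc wT wS, wc wT wU,
    w3 w0, w3 w1, w3 wV, w2 (w0 ++ w1), w2 (w0 ++ wV), w2 (w1 ++ wV),
    wc w0 wG, wc w1 wG, w2 (wV ++ wG ++ wV ++ wi wG)]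

theorem rl_eq : rl = rlN ++ rlT := rfl

theorem ck0 : H2.HN.rck ((w2 wG).map cv) = true := by decide +kernel
theorem ck1 : H2.HN.rck ((wS ++ wS ++ wS ++ wS ++ wS).map cv) = true := by decide +kernel
theorem ck2 : H2.HN.rck ((w3 wU).map cv) = true := by decide +kernel
theorem ck3 : H2.HN.rck ((w2 (wU ++ wi wS ++ wU ++ wS)).map cv) = true := by decide +kernel
theorem ck4 : H2.HN.rck ((w2 (wU ++ wi wS ++ wi wS ++ wU ++ wS ++ wS)).map cv) = true := by decide +kernel
theorem ck5 : H2.HN.rck ((w3 wQ).map cv) = true := by decide +kernel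
theorem ck6 : H2.HN.rck ((w2 (wQ ++ wU)).map cv) = true := by decide +kernel
theorem ck7 : H2.HN.rck ((wc wQ wS).map cv) = true := by decide +kernel
theorem ck8 : H2.HN.rck ((wc wZ wC).map cv) = true := by decide +kernel
theorem ck9 : H2.HN.rck ((wc wZ wS).map cv) = true := by decide +kernel
theorem ck10 : H2.HN.rck ((wc wZ wU).map cv) = true := by decide +kernel

theorem relHN' : H2.HN.Rel (gP .x) (gP .y) (gP .z) := H2.HN.relHN.1

theorem evN (w : List Lt) (hw : w ∈ rlN) : ev (gP .x) (gP .y) (gP .z) (gP .t) w = 1 := by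
  have key : ∀ w : List Lt, w.all nt = true → H2.HN.rck (w.map cv) = true →
      ev (gP .x) (gP .y) (gP .z) (gP .t) w = 1 := by
    intro w h1 h2
    rw [ev_cv _ _ _ _ w h1]
    exact H2.HN.word_trivial relHN' h2
  simp only [rlN, List.mem_cons, List.mem_nil_iff, or_false] at hw
  rcases hw with rfl | rfl | rfl | rfl | rfl | rfl | rfl | rfl | rfl | rfl | rfl
  · exact key _ (by decide) ck0
  · exact key _ (by decide) ck1
  · exact key _ (by decide) ck2
  · exact key _ (by decide) ck3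
  · exact key _ (by decide) ck4
  · exact key _ (by decide) ck5
  · exact key _ (by decide) ck6
  · exact key _ (by decide) ck7
  · exact key _ (by decide) ck8
  · exact key _ (by decide) ck9
  · exact key _ (by decide) ck10

theorem evT (hinj : Function.Injective ρ) (w : List Lt) (hw : w ∈ rlT) :
    ev (gP .x) (gP .y) (gP .z) (gP .t) w = 1 := by
  have key : ∀ w : List Lt, ((w.map π).prod) ^ 1 = 1 → ev (gP .x) (gP .y) (gP .z) (gP .t) w = 1 := by
    intro w h
    apply hinj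
    rw [ρ_word, map_one, ← pow_one ((w.map π).prod)]
    exact h
  simp only [rlT, List.mem_cons, List.mem_nil_iff, or_false] at hw
  rcases hw with rfl | rfl | rfl | rfl | rfl | rfl | rfl | rfl | rfl | rfl | rfl | rfl
  · exact key _ w_tc
  · exact key _ w_ts
  · exact key _ w_tu
  · exact key _ w_x03
  · exact key _ w_x13
  · exact key _ w_v3
  · exact key _ w_x01
  · exact key _ w_x0v
  · exact key _ w_x1v
  · exact key _ w_x0g
  · exact key _ w_x1g
  · exact key _ w_R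

theorem index_ne : NW.index ≠ 1 := by
  intro h
  rw [Subgroup.index_eq_one] at h
  obtain ⟨g, hg⟩ := ρ_trans 1 (by norm_num)
  have h1 := NW_fix g (by rw [h]; trivial)
  rw [hg] at h1
  exact absurd h1 (by norm_num)

theorem w0_ne : ev (gP .x) (gP .y) (gP .z) (gP .t) w0 ≠ 1 := by
  intro h
  obtain ⟨hr, t5, _, _, zt⟩ := H2.HN.relHN
  have h2 : H2.HN.ht * (H2.HN.hz * (H2.HN.ht⁻¹ * (H2.HN.ht⁻¹ * H2.HN.hz))) = 1 := by
    have h3 : ev H2.HN.hx H2.HN.hy H2.HN.hz H2.HN.ht w0 = 1 := h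
    simpa [ev, w0, lv] using h3
  have z2 : H2.HN.hz * H2.HN.hz = 1 := by rw [← sq]; exact hr.r7
  -- `t = z t^2 z`
  have e1 : H2.HN.ht = H2.HN.hz * (H2.HN.ht * H2.HN.ht) * H2.HN.hz := by
    have h4 := eq_inv_of_mul_eq_one_left h2
    have hzi : H2.HN.hz⁻¹ = H2.HN.hz := inv_eq_of_mul_eq_one_right z2
    simp only [mul_inv_rev, inv_inv, hzi] at h4
    simpa [mul_assoc] using h4
  have e2 : H2.HN.ht * H2.HN.ht = H2.HN.hz * H2.HN.ht * H2.HN.hz := by
    have : H2.HN.hz * H2.HN.ht * H2.HN.hz = H2.HN.hz * (H2.HN.hz * (H2.HN.ht * H2.HN.ht) * H2.HN.hz) * H2.HN.hz := by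
      rw [← e1]
    rw [this]
    have : H2.HN.hz * (H2.HN.hz * (H2.HN.ht * H2.HN.ht) * H2.HN.hz) * H2.HN.hz =
        (H2.HN.hz * H2.HN.hz) * (H2.HN.ht * H2.HN.ht) * (H2.HN.hz * H2.HN.hz) := by simp only [mul_assoc]
    rw [this, z2, one_mul, mul_one]
  -- `t^4 = (z t z)^2 = z t^2 z = t`
  have e3 : (H2.HN.ht * H2.HN.ht) * (H2.HN.ht * H2.HN.ht) = H2.HN.ht := by
    rw [e2]
    have : H2.HN.hz * H2.HN.ht * H2.HN.hz * (H2.HN.hz * H2.HN.ht * H2.HN.hz) =
        H2.HN.hz * H2.HN.ht * (H2.HN.hz * H2.HN.hz) * H2.HN.ht * H2.HN.hz := by simp only [mul_assoc]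
    rw [this, z2, mul_one]
    have : H2.HN.hz * H2.HN.ht * H2.HN.ht * H2.HN.hz = H2.HN.hz * (H2.HN.ht * H2.HN.ht) * H2.HN.hz := by
      simp only [mul_assoc]
    rw [this, ← e1]
  have t4 : H2.HN.ht ^ 4 = H2.HN.ht := by
    have : H2.HN.ht ^ 4 = (H2.HN.ht * H2.HN.ht) * (H2.HN.ht * H2.HN.ht) := by
      rw [← sq, ← sq, ← pow_mul]
    rw [this, e3]
  have t2 : H2.HN.ht * H2.HN.ht = 1 := by
    rw [← t5, pow_succ, t4]
  have t1 : H2.HN.ht = 1 := by
    have : H2.HN.ht ^ 4 = 1 := by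
      have h5 : H2.HN.ht ^ 4 = (H2.HN.ht * H2.HN.ht) * (H2.HN.ht * H2.HN.ht) := by
        rw [← sq, ← sq, ← pow_mul]
      rw [h5, t2, one_mul]
    rw [t4] at this; exact this
  have z1 : H2.HN.hz = 1 := by
    rw [t1, mul_one, pow_three, z2, mul_one] at zt
    exact zt
  have x2 : H2.HN.hx ^ 2 = 1 := by
    have h9 := hr.r9
    rw [z1] at h9
    simp only [inv_one, one_mul, mul_one, inv_mul_cancel] at h9
    exact inv_eq_one.1 h9
  exact H2.HN.x2_ne NW index_ne x2

theorem exists_a12 (hs : IsSimpleGroup HN) : ∃ φ : alternatingGroup (Fin 12) →* HN, φ ≠ 1 := by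
  have hinj : Function.Injective ρ := by
    rw [← MonoidHom.ker_eq_bot_iff]
    rcases hs.eq_bot_or_eq_top_of_normal ρ.ker inferInstance with h | h
    · exact h
    · exfalso
      apply ρ_ne
      refine MonoidHom.ext fun g => ?_
      have : g ∈ ρ.ker := by rw [h]; trivial
      exact this
  have hz : (gP .z : HN) * gP .z = 1 := by
    rw [← sq]; exact relHN'.r7
  obtain ⟨φ, hφ⟩ := exists_of_words (gP .x : HN) (gP .y) (gP .z) (gP .t) hz (by
    intro w hw
    rw [rl_eq, List.mem_append] at hw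
    rcases hw with h | h
    · exact evN w h
    · exact evT hinj w h)
  refine ⟨φ, ?_⟩
  intro h
  rw [h] at hφ
  exact w0_ne hφ.symm

theorem s0463 (hs : IsSimpleGroup HN) (hc : Nat.card HN = 273030912000000) :
    ∃ H : Subgroup (Equiv.Perm (Fin 1140000)), (IsSimpleGroup H ∧ Nat.card H = 273030912000000) ∧
      MulAction.IsPretransitive H (Fin 1140000) ∧
      Nonempty (MulAction.stabilizer H (0 : Fin 1140000) ≃* alternatingGroup (Fin 12)) := by
  obtain ⟨φ, hφ⟩ := exists_a12 hs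
  exact final hs hc φ hφ

end H10.HNF
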