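import Mathlib
import Cfsg.Agent.Lib.H2.HN.Final
import Cfsg.Agent.Lib.H2.HN.HNTriv
import Cfsg.Agent.Lib.H40.PGS
import Cfsg.Agent.Lib.H40.StemFinish

set_option autoImplicit false
set_option linter.all false

/-!
The Schur multiplier of the presented Harada–Norton group is trivial: `2.HS` has trivial multiplier, so it lifts;
`x²` commutes with `y`, `z` and inverts `t`, and this makes the remaining relations hold for suitable lifts.
-/

namespace H10.HNMult

open Subgroup H2.HN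
open scoped commutatorElement

section gen

variable {K Γ H G : Type} [Group K] [Group Γ] [Group H] [Group G]

theorem comm_central {z1 z2 : Γ} (h1 : z1 ∈ center Γ) (h2 : z2 ∈ center Γ) (a b : Γ) : ⁅a * z1, b * z2⁆ = ⁅a, b⁆ := by
  replace h1 := mem_center_iff.1 h1
  replace h2 := mem_center_iff.1 h2
  have a1 : a * z1 * (b * z2) = (a * b) * (z1 * z2) := by
    calc a * z1 * (b * z2) = a * (z1 * b) * z2 := by group
      _ = a * (b * z1) * z2 := by rw [h1 b]
      _ = _ := by group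
  have a2 : b * z2 * (a * z1) = (b * a) * (z1 * z2) := by
    calc b * z2 * (a * z1) = b * (z2 * a) * z1 := by group
      _ = b * (a * z2) * z1 := by rw [h2 a]
      _ = b * a * (z2 * z1) := by group
      _ = _ := by rw [h2 z1]
  have a3 : ⁅a * z1, b * z2⁆ = (a * z1 * (b * z2)) * (b * z2 * (a * z1))⁻¹ := by
    rw [commutatorElement_def]; group
  rw [a3, a1, a2, commutatorElement_def]
  group

/-- two lifts of a perfect group agree -/
theorem lift_unique (hperf : _root_.commutator K = ⊤) (σ : Γ →* H) (hc : σ.ker ≤ center Γ) (l1 l2 : K →* Γ)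
    (h : ∀ k, σ (l1 k) = σ (l2 k)) (k : K) : l1 k = l2 k := by
  have h1 : _root_.commutator K ≤ l1.eqLocus l2 := by
    rw [_root_.commutator_def, commutator_le]
    intro a _ b _
    have hz : ∀ a, (l2 a)⁻¹ * l1 a ∈ center Γ := fun a => hc (by
      rw [MonoidHom.mem_ker, map_mul, map_inv, h, inv_mul_cancel])
    show l1 ⁅a, b⁆ = l2 ⁅a, b⁆
    rw [map_commutatorElement, map_commutatorElement]
    have e : ∀ a, l1 a = l2 a * ((l2 a)⁻¹ * l1 a) := fun a => by group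
    rw [e a, e b]
    exact comm_central (hz a) (hz b) _ _
  have : k ∈ l1.eqLocus l2 := h1 (by rw [hperf]; trivial)
  exact this

/-- the derived group of a central extension of a perfect group is perfect -/
theorem perfect_derived {Q : Type} [Group Q] (hperf : _root_.commutator K = ⊤) (p : Q →* K) (hp : Function.Surjective p)
    (hc : p.ker ≤ center Q) : _root_.commutator (_root_.commutator Q) = ⊤ ∧ (_root_.commutator Q).map p = ⊤ := by
  have hm : (_root_.commutator Q).map p = ⊤ := by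
    rw [_root_.commutator_def, map_commutator, ← MonoidHom.range_eq_map, MonoidHom.range_eq_top.2 hp]
    exact hperf
  refine ⟨?_, hm⟩
  have h1 : _root_.commutator Q ≤ ⁅_root_.commutator Q, _root_.commutator Q⁆ := by
    conv_lhs => rw [_root_.commutator_def]
    rw [commutator_le]
    intro a _ b _
    have hx : ∀ a : Q, ∃ a' ∈ _root_.commutator Q, ∃ z ∈ center Q, a = a' * z := by
      intro a
      have : p a ∈ (_root_.commutator Q).map p := by rw [hm]; trivial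
      obtain ⟨a', ha', he⟩ := this
      refine ⟨a', ha', a'⁻¹ * a, hc ?_, by group⟩
      rw [MonoidHom.mem_ker, map_mul, map_inv, he, inv_mul_cancel]
    obtain ⟨a', ha, z1, hz1, rfl⟩ := hx a
    obtain ⟨b', hb, z2, hz2, rfl⟩ := hx b
    rw [comm_central hz1 hz2]
    exact commutator_mem_commutator ha hb
  have h2 : (_root_.commutator (_root_.commutator Q)).map (_root_.commutator Q).subtype = ⁅_root_.commutator Q, _root_.commutator Q⁆ :=
    map_subtype_commutator _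
  rw [eq_top_iff]
  intro d _
  have h3 : (d : Q) ∈ (_root_.commutator (_root_.commutator Q)).map (_root_.commutator Q).subtype := by
    rw [h2]; exact h1 d.2
  obtain ⟨e, he, hed⟩ := h3
  have : e = d := Subtype.ext hed
  rw [← this]; exact he

/-- central over central in a perfect group is central -/
theorem central_comp {D : Type} [Group D] (hperf : _root_.commutator D = ⊤) (δ : D →* K) (hs : Function.Surjective δ)
    (hc : δ.ker ≤ center D)
    {d : D} (hd : δ d ∈ center K) : d ∈ center D := by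
  rw [mem_center_iff]
  intro g
  let C : Subgroup D := centralizer {d}
  have h1 : _root_.commutator D ≤ C := by
    rw [_root_.commutator_def, commutator_le]
    intro a _ b _
    have hz : ∀ a : D, ⁅d, a⁆ ∈ center D := fun a => hc (by
      rw [MonoidHom.mem_ker, map_commutatorElement, commutatorElement_def]
      have := mem_center_iff.1 hd (δ a)
      rw [← this]; group)
    have hcj : ∀ a : D, d * a * d⁻¹ = a * ⁅d, a⁆ := by
      intro a
      have h2 := mem_center_iff.1 (hz a) a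
      rw [h2, commutatorElement_def]; group
    rw [mem_centralizer_singleton_iff]
    have h3 : d * ⁅a, b⁆ * d⁻¹ = ⁅a, b⁆ := by
      calc d * ⁅a, b⁆ * d⁻¹ = ⁅d * a * d⁻¹, d * b * d⁻¹⁆ := by
            simp only [commutatorElement_def]; group
        _ = ⁅a * ⁅d, a⁆, b * ⁅d, b⁆⁆ := by rw [hcj a, hcj b]
        _ = ⁅a, b⁆ := comm_central (hz a) (hz b) _ _
    exact (mul_inv_eq_iff_eq_mul.1 h3).symm
  have h4 : g ∈ C := h1 (by rw [hperf]; trivial)
  exact mem_centralizer_singleton_iff.1 h4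

/-- a double cover of a group with multiplier of order two lifts to every central extension -/
theorem exists_lift [Finite K] [Finite Γ] (hm : Cfsg.HasCyclicSchurMultiplier G 2) (hperf : _root_.commutator K = ⊤)
    (f : K →* G) (hf : Function.Surjective f) (hfc : f.ker ≤ center K) (u : K) (hu : f u = 1) (hu1 : u ≠ 1)
    (σ : Γ →* H) (hc : σ.ker ≤ center Γ) (hs : Function.Surjective σ) (π : K →* H) :
    ∃ l : K →* Γ, ∀ k, σ (l k) = π k := by
  let Q : Subgroup (Γ × K) := (σ.comp (MonoidHom.fst Γ K)).eqLocus (π.comp (MonoidHom.snd Γ K))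
  have hQ : ∀ q : Q, σ (q : Γ × K).1 = π (q : Γ × K).2 := fun q => q.2
  let p : Q →* K := (MonoidHom.snd Γ K).comp Q.subtype
  have hp : Function.Surjective p := by
    intro k
    obtain ⟨γ, hγ⟩ := hs (π k)
    exact ⟨⟨(γ, k), hγ⟩, rfl⟩
  have hpc : p.ker ≤ center Q := by
    intro q hq
    have h1 : (q : Γ × K).2 = 1 := hq
    have h2 : (q : Γ × K).1 ∈ center Γ := hc (by rw [MonoidHom.mem_ker, hQ q, h1, map_one])
    rw [mem_center_iff]
    intro g
    apply Subtype.ext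
    apply Prod.ext
    · exact mem_center_iff.1 h2 _
    · show (g : Γ × K).2 * (q : Γ × K).2 = (q : Γ × K).2 * (g : Γ × K).2
      rw [h1, mul_one, one_mul]
  obtain ⟨hD, hmap⟩ := perfect_derived hperf p hp hpc
  let δ : _root_.commutator Q →* K := p.comp (_root_.commutator Q).subtype
  have hδ : Function.Surjective δ := by
    intro k
    have : k ∈ (_root_.commutator Q).map p := by rw [hmap]; trivial
    obtain ⟨q, hq, hqk⟩ := this
    exact ⟨⟨q, hq⟩, hqk⟩
  have hδc : δ.ker ≤ center (_root_.commutator Q) := by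
    intro d hd
    have h1 : (d : Q) ∈ center Q := hpc hd
    rw [mem_center_iff]
    intro g
    exact Subtype.ext (mem_center_iff.1 h1 _)
  have hcen : (f.comp δ).ker ≤ center (_root_.commutator Q) := by
    intro d hd
    exact central_comp hD δ hδ hδc (hfc hd)
  have hcard : Nat.card (f.comp δ).ker ≤ 2 := card_le_two_of_mult hm (f.comp δ) (hf.comp hδ) hD hcen
  have hinj : Function.Injective δ := by
    rw [injective_iff_map_eq_one]
    intro d hd
    by_contra hd1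
    obtain ⟨e, he⟩ := hδ u
    have hdk : d ∈ (f.comp δ).ker := by
      show f (δ d) = 1
      rw [hd, map_one]
    have hek : e ∈ (f.comp δ).ker := by
      show f (δ e) = 1
      rw [he, hu]
    have hde : d ≠ e := by
      rintro rfl
      exact hu1 (he.symm.trans hd)
    have he1 : e ≠ 1 := by
      rintro rfl
      exact hu1 (he.symm.trans (map_one δ))
    have h3 : 2 < Nat.card (f.comp δ).ker := by
      have hinj3 : Function.Injective (![⟨1, one_mem _⟩, ⟨d, hdk⟩, ⟨e, hek⟩] : Fin 3 → (f.comp δ).ker) := by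
        intro i j hij
        fin_cases i <;> fin_cases j <;> simp at hij ⊢
        · exact hd1 hij.symm
        · exact he1 hij.symm
        · exact hd1 hij
        · exact hde hij
        · exact he1 hij
        · exact hde hij.symm
      have := Nat.card_le_card_of_injective _ hinj3
      rw [Nat.card_fin] at this
      omega
    omega
  let e : _root_.commutator Q ≃* K := MulEquiv.ofBijective δ ⟨hinj, hδ⟩
  refine ⟨((MonoidHom.fst Γ K).comp (Q.subtype.comp (_root_.commutator Q).subtype)).comp e.symm.toMonoidHom, ?_⟩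
  intro k
  have h1 : δ (e.symm k) = k := e.apply_symm_apply k
  have h2 := hQ (e.symm k : _root_.commutator Q)
  show σ (((e.symm k : _root_.commutator Q) : Q) : Γ × K).1 = π k
  rw [h2]
  exact congrArg π h1

end gen

section cc

variable {Γ : Type} [Group Γ]

/-- conjugation -/
def cj (a : Γ) : Γ →* Γ := (MulAut.conj a⁻¹).toMonoidHom

theorem cj_apply (a b : Γ) : cj a b = a⁻¹ * b * a := by
  show a⁻¹ * b * a⁻¹⁻¹ = _
  rw [inv_inv]

theorem cj_central {z : Γ} (hz : z ∈ center Γ) (a : Γ) : cj a z = z := by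
  rw [cj_apply, mem_center_iff.1 hz, mul_assoc, inv_mul_cancel, mul_one]

theorem cj_mul (a b c : Γ) : cj (a * b) c = cj b (cj a c) := by
  rw [cj_apply, cj_apply, cj_apply]; group

theorem cpow {b : Γ} (hb : b ∈ center Γ) (x : Γ) (n : ℕ) : (x * b) ^ n = x ^ n * b ^ n :=
  (show Commute x b from mem_center_iff.1 hb x).mul_pow n

theorem norm_t {X τ d g : Γ} (hd : d ∈ center Γ) (hg : g ∈ center Γ) (e1 : (X⁻¹ * τ * X) * τ ^ 2 = d)
    (e3 : τ ^ 5 = g) :
    (X⁻¹ * (τ * ((d ^ 2)⁻¹ * g)) * X) * (τ * ((d ^ 2)⁻¹ * g)) ^ 2 = 1 ∧ (τ * ((d ^ 2)⁻¹ * g)) ^ 5 = 1 := by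
  have p1 : cj X τ = (τ ^ 2)⁻¹ * d := by
    rw [cj_apply]
    exact (eq_mul_inv_of_mul_eq e1).trans (mem_center_iff.1 hd _).symm
  have p2 : cj X (τ ^ 5) = τ ^ 5 := by rw [e3]; exact cj_central hg X
  have h3 : g ^ 3 = d ^ 5 := by
    rw [map_pow, p1, cpow hd, e3, inv_pow, ← pow_mul] at p2
    have e : τ ^ (2 * 5) = g ^ 2 := by rw [← e3, ← pow_mul]
    rw [e] at p2
    calc g ^ 3 = g ^ 2 * g := pow_succ g 2
      _ = g ^ 2 * ((g ^ 2)⁻¹ * d ^ 5) := by rw [p2]
      _ = d ^ 5 := by rw [mul_inv_cancel_left]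
  have hd2 : (d ^ 2)⁻¹ ∈ center Γ := inv_mem (pow_mem hd 2)
  set b := (d ^ 2)⁻¹ * g with hb
  have hbc : b ∈ center Γ := mul_mem hd2 hg
  have hb3 : b ^ 3 = d⁻¹ := by
    rw [hb, cpow hg, h3]; group
  have hb5 : b ^ 5 = g⁻¹ := by
    rw [hb, cpow hg]
    have h6 : g ^ 6 = d ^ 10 := by
      rw [show (6 : ℕ) = 3 * 2 from rfl, pow_mul, h3, ← pow_mul]
    have : ((d ^ 2)⁻¹) ^ 5 * g ^ 5 = ((d ^ 2)⁻¹) ^ 5 * g ^ 6 * g⁻¹ := by group
    rw [this, h6]; group
  constructor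
  · have h1 : X⁻¹ * (τ * b) * X = X⁻¹ * τ * X * b := by
      have := mem_center_iff.1 hbc X
      calc X⁻¹ * (τ * b) * X = X⁻¹ * τ * (b * X) := by group
        _ = X⁻¹ * τ * (X * b) := by rw [this]
        _ = _ := by group
    rw [h1, cpow hbc]
    have h2 : X⁻¹ * τ * X * b * (τ ^ 2 * b ^ 2) = X⁻¹ * τ * X * τ ^ 2 * b ^ 3 := by
      have := mem_center_iff.1 hbc (τ ^ 2)
      calc X⁻¹ * τ * X * b * (τ ^ 2 * b ^ 2) = X⁻¹ * τ * X * (b * τ ^ 2) * b ^ 2 := by group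
        _ = X⁻¹ * τ * X * (τ ^ 2 * b) * b ^ 2 := by rw [this]
        _ = _ := by group
    rw [h2, e1, hb3, mul_inv_cancel]
  · rw [cpow hbc, e3, hb5, mul_inv_cancel]

variable {X Y τ ζ f c h : Γ}

theorem u_inv (e1 : (X⁻¹ * τ * X) * τ ^ 2 = 1) (e3 : τ ^ 5 = 1) : cj (X ^ 2) τ = τ⁻¹ := by
  have p1 : cj X τ = (τ ^ 2)⁻¹ := by rw [cj_apply]; exact eq_inv_of_mul_eq_one_left e1
  rw [pow_two X, cj_mul, p1, map_inv, map_pow, p1]
  calc (((τ ^ 2)⁻¹) ^ 2)⁻¹ = τ ^ 5 * τ⁻¹ := by group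
    _ = τ⁻¹ := by rw [e3, one_mul]

theorem f_one (hf : f ∈ center Γ) (e1 : (X⁻¹ * τ * X) * τ ^ 2 = 1) (e3 : τ ^ 5 = 1)
    (e2 : τ⁻¹ * Y⁻¹ * τ * Y = f) (uy : Commute Y (X ^ 2)) : f = 1 := by
  have q := u_inv e1 e3
  have p2 : cj Y τ = τ * f := by rw [cj_apply, ← e2]; group
  have h5 : f ^ 5 = 1 := by
    have h1 : cj Y (τ ^ 5) = 1 := by rw [e3, map_one]
    rwa [map_pow, p2, cpow hf, e3, one_mul] at h1
  have h2 : f ^ 2 = 1 := by
    have h1 : cj (Y * X ^ 2) τ = cj (X ^ 2 * Y) τ := by rw [uy.eq]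
    rw [cj_mul, cj_mul, p2, q, map_mul, q, cj_central hf, map_inv, p2, mul_inv_rev,
      mem_center_iff.1 (inv_mem hf) τ⁻¹ |>.symm] at h1
    have h3 := mul_left_cancel h1
    rw [pow_two]
    nth_rewrite 2 [h3]
    exact mul_inv_cancel f
  calc f = f ^ 5 * (f ^ 2)⁻¹ * (f ^ 2)⁻¹ := by group
    _ = 1 := by rw [h5, h2]; group

theorem norm_z (hc : c ∈ center Γ) (hh : h ∈ center Γ) (e1 : (X⁻¹ * τ * X) * τ ^ 2 = 1) (e3 : τ ^ 5 = 1)
    (e5 : ζ ^ 2 = c) (e4 : (ζ * τ) ^ 3 = h) (uz : Commute ζ (X ^ 2)) :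
    (ζ * (c * h⁻¹)) ^ 2 = 1 ∧ (ζ * (c * h⁻¹) * τ) ^ 3 = 1 := by
  have q := u_inv e1 e3
  have qz : cj (X ^ 2) ζ = ζ := by
    rw [cj_apply, mul_assoc, uz.eq, inv_mul_cancel_left]
  have h1 : (ζ * τ⁻¹) ^ 3 = h := by
    have := cj_central hh (X ^ 2)
    rwa [← e4, map_pow, map_mul, q, qz, e4] at this
  have h2 : (ζ⁻¹ * τ) ^ 3 = h⁻¹ := by
    have h3 : cj τ (ζ * τ⁻¹)⁻¹ = ζ⁻¹ * τ := by rw [cj_apply]; group
    rw [← h3, ← map_pow, inv_pow, h1]
    exact cj_central (inv_mem hh) τ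
  have h3 : h ^ 2 = c ^ 3 := by
    have h4 : ζ⁻¹ * τ = (ζ * τ) * c⁻¹ := by
      rw [← mem_center_iff.1 (inv_mem hc) (ζ * τ) |>.symm, ← e5]; group
    rw [h4, cpow (inv_mem hc), e4] at h2
    have h5 : h * (h * (c⁻¹) ^ 3) = 1 := by rw [h2, mul_inv_cancel]
    calc h ^ 2 = h * h := pow_two h
      _ = h * (h * (c⁻¹) ^ 3) * c ^ 3 := by group
      _ = c ^ 3 := by rw [h5, one_mul]
  have hh' : h⁻¹ ∈ center Γ := inv_mem hh
  have hac : c * h⁻¹ ∈ center Γ := mul_mem hc hh'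
  constructor
  · rw [cpow hac, e5, cpow hh']
    calc c * (c ^ 2 * h⁻¹ ^ 2) = c ^ 3 * (h ^ 2)⁻¹ := by group
      _ = 1 := by rw [h3, mul_inv_cancel]
  · have h6 : ζ * (c * h⁻¹) * τ = (ζ * τ) * (c * h⁻¹) := by
      rw [mul_assoc, ← mem_center_iff.1 hac τ, mul_assoc]
    rw [h6, cpow hac, e4, cpow hh']
    have h7 := mem_center_iff.1 (pow_mem hc 3) h
    calc h * (c ^ 3 * h⁻¹ ^ 3) = h * c ^ 3 * h⁻¹ ^ 3 := by group
      _ = c ^ 3 * h * h⁻¹ ^ 3 := by rw [h7]
      _ = c ^ 3 * (h ^ 2)⁻¹ := by group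
      _ = 1 := by rw [h3, mul_inv_cancel]

end cc

section ext

variable {Γ : Type} [Group Γ]

/-- conjugate by `z` -/
def cz (k : H2.HN.K) : H2.HN.K := ⟨pz * (k : P) * pz⁻¹, conj_z_mem relP k.2⟩

theorem rel_of_inj {Δ : Type} [Group Δ] {x y z : Γ} (φ : Γ →* Δ) (hφ : Function.Injective φ)
    (h : Rel (φ x) (φ y) (φ z)) : Rel x y z := by
  constructor
  · apply hφ; simpa only [map_mul, map_pow, map_inv, map_one] using h.r1
  · apply hφ; simpa only [map_mul, map_pow, map_inv, map_one] using h.r2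
  · apply hφ; simpa only [map_mul, map_pow, map_inv, map_one] using h.r3
  · apply hφ; simpa only [map_mul, map_pow, map_inv, map_one] using h.r4
  · apply hφ; simpa only [map_mul, map_pow, map_inv, map_one] using h.r5
  · apply hφ; simpa only [map_mul, map_pow, map_inv, map_one] using h.r6
  · apply hφ; simpa only [map_mul, map_pow, map_inv, map_one] using h.r7
  · apply hφ; simpa only [map_mul, map_pow, map_inv, map_one] using h.r8
  · apply hφ; simpa only [map_mul, map_pow, map_inv, map_one] using h.r9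
  · apply hφ; simpa only [map_mul, map_pow, map_inv, map_one] using h.r10

/-- the graph of the extended homomorphism -/
def SS (l : H2.HN.K →* Γ) (ζ : Γ) (hζ : ζ ^ 2 = 1) (hcz : ∀ k, ζ * l k * ζ⁻¹ = l (cz k)) : Subgroup (Γ × P) where
  carrier := {q | (∃ k : H2.HN.K, q = (l k, (k : P))) ∨ ∃ k : H2.HN.K, q = (l k * ζ, (k : P) * pz)}
  one_mem' := Or.inl ⟨1, by rw [map_one]; rfl⟩
  mul_mem' := by
    rintro _ _ (⟨k, rfl⟩ | ⟨k, rfl⟩) (⟨m, rfl⟩ | ⟨m, rfl⟩)
    · exact Or.inl ⟨k * m, Prod.ext (map_mul l k m).symm rfl⟩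
    · refine Or.inr ⟨k * m, Prod.ext ?_ ?_⟩
      · show l k * (l m * ζ) = l (k * m) * ζ
        rw [map_mul, mul_assoc]
      · show (k : P) * ((m : P) * pz) = (k : P) * (m : P) * pz
        rw [mul_assoc]
    · refine Or.inr ⟨k * cz m, Prod.ext ?_ ?_⟩
      · show l k * ζ * l m = l (k * cz m) * ζ
        rw [map_mul, ← hcz]; group
      · show (k : P) * pz * (m : P) = (k : P) * (pz * (m : P) * pz⁻¹) * pz
        group
    · refine Or.inl ⟨k * cz m, Prod.ext ?_ ?_⟩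
      · show l k * ζ * (l m * ζ) = l (k * cz m)
        rw [map_mul, ← hcz]
        calc l k * ζ * (l m * ζ) = l k * (ζ * l m * ζ⁻¹) * ζ ^ 2 := by group
          _ = _ := by rw [hζ, mul_one]
      · show (k : P) * pz * ((m : P) * pz) = (k : P) * (pz * (m : P) * pz⁻¹)
        calc (k : P) * pz * ((m : P) * pz) = (k : P) * (pz * (m : P) * pz⁻¹) * pz ^ 2 := by group
          _ = _ := by rw [relP.r7, mul_one]
  inv_mem' := by
    rintro _ (⟨k, rfl⟩ | ⟨k, rfl⟩)
    · exact Or.inl ⟨k⁻¹, Prod.ext (map_inv l k).symm rfl⟩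
    · refine Or.inr ⟨cz k⁻¹, Prod.ext ?_ ?_⟩
      · show (l k * ζ)⁻¹ = l (cz k⁻¹) * ζ
        rw [← hcz, map_inv]
        have h1 : ζ⁻¹ = ζ := by rw [inv_eq_iff_mul_eq_one, ← pow_two]; exact hζ
        calc (l k * ζ)⁻¹ = ζ⁻¹ * (l k)⁻¹ := mul_inv_rev _ _
          _ = ζ * (l k)⁻¹ := by rw [h1]
          _ = _ := by group
      · show ((k : P) * pz)⁻¹ = pz * ((k : P))⁻¹ * pz⁻¹ * pz
        calc ((k : P) * pz)⁻¹ = pz⁻¹ * (k : P)⁻¹ := mul_inv_rev _ _
          _ = pz * (k : P)⁻¹ := by rw [relP.z_inv]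
          _ = _ := by group

theorem rel_ext (l : H2.HN.K →* Γ) (ζ : Γ) (hζ : ζ ^ 2 = 1) (hcz : ∀ k, ζ * l k * ζ⁻¹ = l (cz k)) :
    Rel (l ⟨px, x_mem _ _ _⟩) (l ⟨py, y_mem _ _ _⟩) ζ := by
  let S := SS l ζ hζ hcz
  let qx : S := ⟨(l ⟨px, x_mem _ _ _⟩, px), Or.inl ⟨⟨px, x_mem _ _ _⟩, rfl⟩⟩
  let qy : S := ⟨(l ⟨py, y_mem _ _ _⟩, py), Or.inl ⟨⟨py, y_mem _ _ _⟩, rfl⟩⟩
  let qz : S := ⟨(ζ, pz), Or.inr ⟨1, by rw [map_one, one_mul, Subgroup.coe_one, one_mul]⟩⟩
  let φ1 : S →* Γ := (MonoidHom.fst Γ P).comp S.subtype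
  let φ2 : S →* P := (MonoidHom.snd Γ P).comp S.subtype
  have hφ : Function.Injective φ2 := by
    rw [injective_iff_map_eq_one]
    rintro ⟨q, hq⟩ h1
    have h2 : q.2 = 1 := h1
    apply Subtype.ext
    show q = 1
    rcases hq with ⟨k, rfl⟩ | ⟨k, rfl⟩
    · have : k = 1 := Subtype.ext h2
      rw [this, map_one]; rfl
    · exfalso
      have h3 : pz = (k : P)⁻¹ := eq_inv_of_mul_eq_one_right h2
      exact pz_not (by rw [h3]; exact inv_mem k.2)
  have h1 : Rel qx qy qz := rel_of_inj φ2 hφ relP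
  exact h1.map φ1

theorem conj_lift {σ : Γ →* HNG} (hc : σ.ker ≤ center Γ) (l : H2.HN.K →* Γ)
    (hl : ∀ k, σ (l k) = lift relHN.1 (k : P)) (ζ : Γ) (hζ : σ ζ = hz) (k : H2.HN.K) :
    ζ * l k * ζ⁻¹ = l (cz k) := by
  haveI := normal_K relP closureP
  refine lift_unique perfK σ hc ((MulAut.conj ζ).toMonoidHom.comp l)
    (l.comp (MulAut.conjNormal pz : MulAut H2.HN.K).toMonoidHom) ?_ k
  intro k
  show σ (ζ * l k * ζ⁻¹) = σ (l (MulAut.conjNormal pz k))
  rw [hl, MulAut.conjNormal_apply, map_mul, map_mul, map_inv, hl, map_mul, map_mul, map_inv, lift_z, hζ]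

end ext

theorem ker_bot (h2 : hx ^ 2 ≠ 1) {Γ : Type} [Group Γ] [Finite Γ] {σ : Γ →* Cfsg.Spor.HN}
    (hσ : Cfsg.IsStemExtension σ) : ∀ z ∈ σ.ker, z = 1 := by
  obtain ⟨hr, t5, xt, ty, zt⟩ := relHN
  have hc : σ.ker ≤ center Γ := hσ.2.1
  have hu1 : uK ≠ 1 := by
    intro h
    apply h2
    have h3 : px ^ 2 = 1 := congrArg Subtype.val h
    have h4 := congrArg (lift relHN.1) h3
    rwa [map_pow, lift_x, map_one] at h4
  obtain ⟨l, hl⟩ := exists_lift (K := H2.HN.K) H64.HSM.multG perfK f f_surj ker_f_central uK f_uK hu1 σ hc hσ.1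
    ((lift relHN.1).comp (Subgroup.subtype H2.HN.K))
  have hl' : ∀ k, σ (l k) = lift relHN.1 (k : P) := hl
  set X := l ⟨px, x_mem _ _ _⟩ with hX
  set Y := l ⟨py, y_mem _ _ _⟩ with hY
  have sX : σ X = hx := (hl' _).trans (lift_x _)
  have sY : σ Y = hy := (hl' _).trans (lift_y _)
  obtain ⟨ζ0, s0⟩ := hσ.1 hz
  obtain ⟨τ0, t0⟩ := hσ.1 ht
  have hX2 : X ^ 2 = l (⟨px, x_mem _ _ _⟩ ^ 2) := (map_pow l _ 2).symm
  have uy : Commute Y (X ^ 2) := by
    show Y * X ^ 2 = X ^ 2 * Y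
    rw [hX2, hY, ← map_mul, ← map_mul]
    congr 1
    exact Subtype.ext relP.comm_y.eq
  have uz : Commute ζ0 (X ^ 2) := by
    have h3 := conj_lift hc l hl' ζ0 s0 (⟨px, x_mem _ _ _⟩ ^ 2)
    have h4 : cz (⟨px, x_mem _ _ _⟩ ^ 2) = ⟨px, x_mem _ _ _⟩ ^ 2 := by
      apply Subtype.ext
      show pz * px ^ 2 * pz⁻¹ = px ^ 2
      rw [relP.comm_z.eq, mul_inv_cancel_right]
    rw [h4, ← hX2] at h3
    exact mul_inv_eq_iff_eq_mul.1 h3
  -- normalise t
  have kd : X⁻¹ * τ0 * X * τ0 ^ 2 ∈ σ.ker := by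
    rw [MonoidHom.mem_ker, map_mul, map_mul, map_mul, map_inv, map_pow, sX, t0]; exact xt
  have kg : τ0 ^ 5 ∈ σ.ker := by rw [MonoidHom.mem_ker, map_pow, t0]; exact t5
  obtain ⟨n1, n2⟩ := norm_t (hc kd) (hc kg) rfl rfl
  have kb : ((X⁻¹ * τ0 * X * τ0 ^ 2) ^ 2)⁻¹ * τ0 ^ 5 ∈ σ.ker := mul_mem (inv_mem (pow_mem kd 2)) kg
  set τ := τ0 * (((X⁻¹ * τ0 * X * τ0 ^ 2) ^ 2)⁻¹ * τ0 ^ 5) with hτ
  have st : σ τ = ht := by rw [hτ, map_mul, MonoidHom.mem_ker.1 kb, mul_one, t0]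
  have kf : τ⁻¹ * Y⁻¹ * τ * Y ∈ σ.ker := by
    rw [MonoidHom.mem_ker, map_mul, map_mul, map_mul, map_inv, map_inv, sY, st]; exact ty
  have n3 := f_one (hc kf) n1 n2 rfl uy
  have kc : ζ0 ^ 2 ∈ σ.ker := by rw [MonoidHom.mem_ker, map_pow, s0]; exact hr.r7
  have kh : (ζ0 * τ) ^ 3 ∈ σ.ker := by rw [MonoidHom.mem_ker, map_pow, map_mul, s0, st]; exact zt
  obtain ⟨n4, n5⟩ := norm_z (hc kc) (hc kh) n1 n2 rfl rfl uz
  have ka : ζ0 ^ 2 * ((ζ0 * τ) ^ 3)⁻¹ ∈ σ.ker := mul_mem kc (inv_mem kh)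
  set ζ := ζ0 * (ζ0 ^ 2 * ((ζ0 * τ) ^ 3)⁻¹) with hζ
  have sz : σ ζ = hz := by rw [hζ, map_mul, MonoidHom.mem_ker.1 ka, mul_one, s0]
  have hR : Rel X Y ζ := rel_ext l ζ n4 (conj_lift hc l hl' ζ sz)
  have hker : σ.ker ≤ ⊥ := by
    refine H40.PGS.cox_ker_le hσ ⊥ bot_le
      (fun g => match g with | .x => X | .y => Y | .z => ζ | .t => τ) ?_ ?_ ?_
    · intro g
      cases g
      · exact sX
      · exact sY
      · exact sz
      · exact st
    · intro x hx
      simp [Cfsg.Spor.coxNodes, Cfsg.Spor.HN.edges] at hx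
    · intro r hr'
      rw [Subgroup.mem_bot]
      simp only [Cfsg.Spor.HN.extra, List.mem_cons, List.mem_nil_iff, or_false] at hr'
      rcases hr' with rfl | rfl | rfl | rfl | rfl | rfl | rfl | rfl | rfl | rfl | rfl | rfl | rfl | rfl <;>
        simp only [map_mul, map_pow, map_inv, FreeGroup.lift_apply_of]
      · exact hR.r1
      · exact hR.r2
      · exact hR.r3
      · exact hR.r4
      · exact hR.r5
      · exact hR.r6
      · exact hR.r7
      · exact hR.r8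
      · exact hR.r9
      · exact hR.r10
      · exact n2
      · exact n1
      · exact n3
      · exact n5
  intro z hz
  exact hker hz

/-- **main theorem**: the multiplier of `HN` is trivial (as soon as `HN` is finite and not trivial) -/
theorem mult [Finite Cfsg.Spor.HN] (h2 : hx ^ 2 ≠ 1) : Cfsg.HasCyclicSchurMultiplier Cfsg.Spor.HN 1 :=
  H40.StemFinish.hasCyclic_one_of_ker fun Γ _ _ σ hσ => ker_bot h2 hσ

end H10.HNMult
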