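import Mathlib

set_option autoImplicit false

/-! Counting in a Steiner system `S(3, 6, 22)`, given as a finset of finsets. -/

namespace H10.Steiner22

set_option linter.unusedSectionVars false

variable {α : Type*} [Fintype α] [DecidableEq α] {B : Finset (Finset α)}

/-- integer indicator -/
def ind (d : Finset α) (x : α) : ℤ := if x ∈ d then 1 else 0

theorem ind_mul_self (d : Finset α) (x : α) : ind d x * ind d x = ind d x := by
  unfold ind; split_ifs <;> simp

theorem sum_ind (d : Finset α) : ∑ x, ind d x = d.card := by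
  unfold ind
  rw [Finset.sum_ite_mem]; simp

theorem sum_ind_inter (d b : Finset α) : ∑ x ∈ b, ind d x = (d ∩ b).card := by
  unfold ind
  rw [Finset.sum_ite_mem, Finset.inter_comm]; simp

theorem triple (h3 : ∀ s : Finset α, s.card = 3 → ∃! b, b ∈ B ∧ s ⊆ b) {x y z : α} (hxy : x ≠ y)
    (hxz : x ≠ z) (hyz : y ≠ z) : ∑ d ∈ B, ind d x * ind d y * ind d z = 1 := by
  have hs : ({x, y, z} : Finset α).card = 3 := Finset.card_eq_three.2 ⟨x, y, z, hxy, hxz, hyz, rfl⟩
  obtain ⟨b, ⟨hb, hsb⟩, hu⟩ := h3 _ hs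
  rw [Finset.sum_eq_single b]
  · have h1 : x ∈ b := hsb (by simp)
    have h2 : y ∈ b := hsb (by simp)
    have h4 : z ∈ b := hsb (by simp)
    simp [ind, h1, h2, h4]
  · intro d hd hdb
    by_contra hne
    apply hdb
    apply hu
    refine ⟨hd, ?_⟩
    have hx : x ∈ d := by by_contra h; apply hne; simp [ind, h]
    have hy : y ∈ d := by by_contra h; apply hne; simp [ind, h]
    have hz : z ∈ d := by by_contra h; apply hne; simp [ind, h]
    intro w hw
    simp only [Finset.mem_insert, Finset.mem_singleton] at hw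
    rcases hw with rfl | rfl | rfl <;> assumption
  · intro h; exact absurd hb h

theorem pair (hα : Fintype.card α = 22) (h6 : ∀ b ∈ B, b.card = 6)
    (h3 : ∀ s : Finset α, s.card = 3 → ∃! b, b ∈ B ∧ s ⊆ b) {x y : α} (hxy : x ≠ y) :
    ∑ d ∈ B, ind d x * ind d y = 5 := by
  have h1 : ∑ z, ∑ d ∈ B, ind d x * ind d y * ind d z = 6 * ∑ d ∈ B, ind d x * ind d y := by
    rw [Finset.sum_comm, Finset.mul_sum]
    apply Finset.sum_congr rfl
    intro d hd
    rw [← Finset.mul_sum, sum_ind, h6 d hd]; push_cast; ring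
  have h2 : ∀ z, ∑ d ∈ B, ind d x * ind d y * ind d z = if z = x ∨ z = y then ∑ d ∈ B, ind d x * ind d y else 1 := by
    intro z
    split_ifs with h
    · apply Finset.sum_congr rfl
      intro d _
      rcases h with rfl | rfl
      · rw [mul_right_comm, ind_mul_self]
      · rw [mul_assoc, ind_mul_self]
    · push Not at h
      exact triple h3 hxy h.1.symm h.2.symm
  have h4 : ∑ z, (if z = x ∨ z = y then ∑ d ∈ B, ind d x * ind d y else 1) =
      2 * (∑ d ∈ B, ind d x * ind d y) + 20 := by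
    rw [Finset.sum_ite]
    have h5 : (Finset.univ.filter (fun z : α => z = x ∨ z = y)) = {x, y} := by
      ext z; simp
    have h6 : (Finset.univ.filter (fun z : α => ¬ (z = x ∨ z = y))) = Finset.univ \ {x, y} := by
      ext z; simp
    rw [h5, h6, Finset.sum_const, Finset.sum_const, Finset.card_pair hxy, Finset.card_sdiff_of_subset (Finset.subset_univ _),
      Finset.card_pair hxy, Finset.card_univ, hα]
    simp
  simp only [h2] at h1
  rw [h4] at h1
  linarith

theorem single (hα : Fintype.card α = 22) (h6 : ∀ b ∈ B, b.card = 6)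
    (h3 : ∀ s : Finset α, s.card = 3 → ∃! b, b ∈ B ∧ s ⊆ b) (x : α) :
    ∑ d ∈ B, ind d x = 21 := by
  have h1 : ∑ y, ∑ d ∈ B, ind d x * ind d y = 6 * ∑ d ∈ B, ind d x := by
    rw [Finset.sum_comm, Finset.mul_sum]
    apply Finset.sum_congr rfl
    intro d hd
    rw [← Finset.mul_sum, sum_ind, h6 d hd]; push_cast; ring
  have h2 : ∀ y, ∑ d ∈ B, ind d x * ind d y = if y = x then ∑ d ∈ B, ind d x else 5 := by
    intro y
    split_ifs with h
    · subst h; simp only [ind_mul_self]
    · exact pair hα h6 h3 (Ne.symm h)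
  have h4 : ∑ y, (if y = x then ∑ d ∈ B, ind d x else 5) = (∑ d ∈ B, ind d x) + 105 := by
    rw [Finset.sum_ite]
    have h5 : (Finset.univ.filter (fun z : α => z = x)) = {x} := by
      ext z; simp
    have h6 : (Finset.univ.filter (fun z : α => ¬ (z = x))) = Finset.univ \ {x} := by
      ext z; simp
    rw [h5, h6, Finset.sum_const, Finset.sum_const, Finset.card_singleton, Finset.card_sdiff_of_subset (Finset.subset_univ _),
      Finset.card_singleton, Finset.card_univ, hα]
    simp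
  simp only [h2] at h1
  rw [h4] at h1
  linarith

theorem card_blocks (hα : Fintype.card α = 22) (h6 : ∀ b ∈ B, b.card = 6)
    (h3 : ∀ s : Finset α, s.card = 3 → ∃! b, b ∈ B ∧ s ⊆ b) : B.card = 77 := by
  have h1 : ∑ x, ∑ d ∈ B, ind d x = 6 * (B.card : ℤ) := by
    rw [Finset.sum_comm]
    have : ∀ d ∈ B, ∑ x, ind d x = 6 := fun d hd => by rw [sum_ind, h6 d hd]; rfl
    rw [Finset.sum_congr rfl this]; simp [mul_comm]
  simp only [single hα h6 h3] at h1
  rw [Finset.sum_const, Finset.card_univ, hα] at h1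
  have : (B.card : ℤ) = 77 := by
    simp only [nsmul_eq_mul] at h1; push_cast at h1; linarith
  exact_mod_cast this

/-- first moment -/
theorem sum_inter (hα : Fintype.card α = 22) (h6 : ∀ b ∈ B, b.card = 6)
    (h3 : ∀ s : Finset α, s.card = 3 → ∃! b, b ∈ B ∧ s ⊆ b) (b : Finset α) :
    ∑ d ∈ B, ((d ∩ b).card : ℤ) = 21 * b.card := by
  simp only [← sum_ind_inter]
  rw [Finset.sum_comm, Finset.sum_congr rfl (fun x _ => single hα h6 h3 x)]
  simp [mul_comm]

/-- mixed second moment -/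
theorem sum_inter_mul (hα : Fintype.card α = 22) (h6 : ∀ b ∈ B, b.card = 6)
    (h3 : ∀ s : Finset α, s.card = 3 → ∃! b, b ∈ B ∧ s ⊆ b) (b c : Finset α) :
    ∑ d ∈ B, ((d ∩ b).card : ℤ) * ((d ∩ c).card : ℤ) = 5 * (b.card * c.card) + 16 * (b ∩ c).card := by
  have h1 : ∀ d ∈ B, ((d ∩ b).card : ℤ) * ((d ∩ c).card : ℤ) = ∑ x ∈ b, ∑ y ∈ c, ind d x * ind d y := by
    intro d _
    rw [← sum_ind_inter, ← sum_ind_inter, Finset.sum_mul_sum]
  rw [Finset.sum_congr rfl h1, Finset.sum_comm]
  have h2 : ∀ x ∈ b, ∑ d ∈ B, ∑ y ∈ c, ind d x * ind d y = 5 * c.card + 16 * (if x ∈ c then 1 else 0) := by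
    intro x _
    rw [Finset.sum_comm]
    have h3' : ∀ y ∈ c, ∑ d ∈ B, ind d x * ind d y = 5 + 16 * (if y = x then 1 else 0) := by
      intro y _
      split_ifs with h
      · subst h; simp only [ind_mul_self]; rw [single hα h6 h3]; norm_num
      · rw [pair hα h6 h3 (Ne.symm h)]; norm_num
    rw [Finset.sum_congr rfl h3', Finset.sum_add_distrib, ← Finset.mul_sum, Finset.sum_ite_eq']
    simp [mul_comm]
  rw [Finset.sum_congr rfl h2, Finset.sum_add_distrib, ← Finset.mul_sum, ← Finset.mul_sum, Finset.sum_ite_mem]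
  simp

theorem disjoint_iff_card {b d : Finset α} : Disjoint b d ↔ (d ∩ b).card = 0 := by
  rw [Finset.disjoint_iff_inter_eq_empty, Finset.inter_comm b d, ← Finset.card_eq_zero]

theorem card_inter_le (h3 : ∀ s : Finset α, s.card = 3 → ∃! b, b ∈ B ∧ s ⊆ b) {b c : Finset α}
    (hb : b ∈ B) (hc : c ∈ B) (hbc : b ≠ c) : (c ∩ b).card ≤ 2 := by
  by_contra h
  push Not at h
  obtain ⟨s, hs, hs3⟩ := Finset.exists_subset_card_eq (show 3 ≤ (c ∩ b).card from h)
  obtain ⟨e, -, hu⟩ := h3 s hs3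
  exact hbc ((hu b ⟨hb, hs.trans Finset.inter_subset_right⟩).trans (hu c ⟨hc, hs.trans Finset.inter_subset_left⟩).symm)

/-- two distinct blocks meet in `0` or `2` points -/
theorem card_inter_eq (hα : Fintype.card α = 22) (h6 : ∀ b ∈ B, b.card = 6)
    (h3 : ∀ s : Finset α, s.card = 3 → ∃! b, b ∈ B ∧ s ⊆ b) {b c : Finset α}
    (hb : b ∈ B) (hc : c ∈ B) (hbc : b ≠ c) : (c ∩ b).card = 0 ∨ (c ∩ b).card = 2 := by
  have h1 := sum_inter hα h6 h3 b
  have h2 := sum_inter_mul hα h6 h3 b b
  rw [Finset.inter_self, h6 b hb] at h2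
  rw [h6 b hb] at h1
  -- sum of i (2 - i) over all blocks: = 2*126 - (180+96) = -24, term b: 6 * (-4) = -24
  have h4 : ∑ d ∈ B, ((d ∩ b).card : ℤ) * (2 - (d ∩ b).card) = -24 := by
    have : ∀ d ∈ B, ((d ∩ b).card : ℤ) * (2 - (d ∩ b).card) = 2 * ((d ∩ b).card : ℤ) - ((d ∩ b).card : ℤ) * ((d ∩ b).card : ℤ) := by
      intro d _; ring
    rw [Finset.sum_congr rfl this, Finset.sum_sub_distrib, ← Finset.mul_sum, h1, h2]; norm_num
  rw [← Finset.add_sum_erase _ _ hb, Finset.inter_self, h6 b hb] at h4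
  have h5 : ∑ d ∈ B.erase b, ((d ∩ b).card : ℤ) * (2 - (d ∩ b).card) = 0 := by
    push_cast at h4; linarith
  have h7 : ∀ d ∈ B.erase b, 0 ≤ ((d ∩ b).card : ℤ) * (2 - (d ∩ b).card) := by
    intro d hd
    have := card_inter_le h3 hb (Finset.mem_of_mem_erase hd) (Finset.ne_of_mem_erase hd).symm
    apply mul_nonneg <;> omega
  have h8 := (Finset.sum_eq_zero_iff_of_nonneg h7).1 h5 c (Finset.mem_erase.2 ⟨hbc.symm, hc⟩)
  rcases mul_eq_zero.1 h8 with h | h
  · left; exact_mod_cast h
  · right; omega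

/-- number of blocks (other than `b`) disjoint from the block `b` -/
theorem card_disjoint (hα : Fintype.card α = 22) (h6 : ∀ b ∈ B, b.card = 6)
    (h3 : ∀ s : Finset α, s.card = 3 → ∃! b, b ∈ B ∧ s ⊆ b) {b : Finset α} (hb : b ∈ B) :
    (B.filter fun d => Disjoint b d).card = 16 := by
  have h1 := sum_inter hα h6 h3 b
  rw [h6 b hb] at h1
  have h2 : ∑ d ∈ B, (2 - ((d ∩ b).card : ℤ)) = 28 := by
    rw [Finset.sum_sub_distrib, h1, Finset.sum_const, card_blocks hα h6 h3]; norm_num
  rw [← Finset.add_sum_erase _ _ hb, Finset.inter_self, h6 b hb] at h2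
  have h4 : ∀ d ∈ B.erase b, (2 - ((d ∩ b).card : ℤ)) = if Disjoint b d then 2 else 0 := by
    intro d hd
    simp only [disjoint_iff_card]
    rcases card_inter_eq hα h6 h3 hb (Finset.mem_of_mem_erase hd) (Finset.ne_of_mem_erase hd).symm with h | h <;> simp [h]
  rw [Finset.sum_congr rfl h4, ← Finset.sum_filter, Finset.sum_const, Finset.filter_erase, Finset.erase_eq_of_notMem] at h2
  · have : ((B.filter fun d => Disjoint b d).card : ℤ) = 16 := by
      simp only [nsmul_eq_mul] at h2; push_cast at h2; linarith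
    exact_mod_cast this
  · rw [Finset.mem_filter, disjoint_self]
    rintro ⟨-, h⟩
    have := h6 b hb
    rw [h] at this; simp at this

/-- number of blocks disjoint from two distinct blocks is the size of their intersection plus ... (0 or 4) -/
theorem card_disjoint_two (hα : Fintype.card α = 22) (h6 : ∀ b ∈ B, b.card = 6)
    (h3 : ∀ s : Finset α, s.card = 3 → ∃! b, b ∈ B ∧ s ⊆ b) {b c : Finset α} (hb : b ∈ B) (hc : c ∈ B)
    (hbc : b ≠ c) :
    (B.filter fun d => Disjoint b d ∧ Disjoint c d).card = 2 * (b ∩ c).card := by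
  have h1 := sum_inter hα h6 h3 b
  have h1' := sum_inter hα h6 h3 c
  have h1'' := sum_inter_mul hα h6 h3 b c
  rw [h6 b hb] at h1 h1''
  rw [h6 c hc] at h1' h1''
  set k := (b ∩ c).card with hk
  have h2 : ∑ d ∈ B, ((2 - ((d ∩ b).card : ℤ)) * (2 - ((d ∩ c).card : ℤ))) = 16 * k - 16 := by
    have : ∀ d ∈ B, ((2 - ((d ∩ b).card : ℤ)) * (2 - ((d ∩ c).card : ℤ))) =
        4 - 2 * ((d ∩ b).card : ℤ) - 2 * ((d ∩ c).card : ℤ) + ((d ∩ b).card : ℤ) * ((d ∩ c).card : ℤ) := by
      intro d _; ring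
    rw [Finset.sum_congr rfl this, Finset.sum_add_distrib, Finset.sum_sub_distrib, Finset.sum_sub_distrib,
      ← Finset.mul_sum, ← Finset.mul_sum, h1, h1', h1'', Finset.sum_const, card_blocks hα h6 h3]
    push_cast; ring
  have hcb : c ∈ B.erase b := Finset.mem_erase.2 ⟨hbc.symm, hc⟩
  rw [← Finset.add_sum_erase _ _ hb, ← Finset.add_sum_erase _ _ hcb, Finset.inter_self, Finset.inter_self,
    h6 b hb, h6 c hc, Finset.inter_comm c b, ← hk] at h2
  have h4 : ∀ d ∈ (B.erase b).erase c, ((2 - ((d ∩ b).card : ℤ)) * (2 - ((d ∩ c).card : ℤ))) =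
      if Disjoint b d ∧ Disjoint c d then 4 else 0 := by
    intro d hd
    have hdb := Finset.mem_of_mem_erase hd
    simp only [disjoint_iff_card]
    rcases card_inter_eq hα h6 h3 hb (Finset.mem_of_mem_erase hdb) (Finset.ne_of_mem_erase hdb).symm with h | h <;>
    rcases card_inter_eq hα h6 h3 hc (Finset.mem_of_mem_erase hdb) (Finset.ne_of_mem_erase hd).symm with h' | h' <;>
    simp [h, h']
  rw [Finset.sum_congr rfl h4, ← Finset.sum_filter, Finset.sum_const] at h2
  have h5 : ((B.erase b).erase c).filter (fun d => Disjoint b d ∧ Disjoint c d) =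
      B.filter fun d => Disjoint b d ∧ Disjoint c d := by
    ext d
    simp only [Finset.mem_filter, Finset.mem_erase]
    constructor
    · rintro ⟨⟨_, _, h⟩, h'⟩; exact ⟨h, h'⟩
    · rintro ⟨h, h'⟩
      refine ⟨⟨?_, ?_, h⟩, h'⟩
      · rintro rfl
        have := h6 d hc
        rw [disjoint_self.1 h'.2] at this; simp at this
      · rintro rfl
        have := h6 d hb
        rw [disjoint_self.1 h'.1] at this; simp at this
  rw [h5] at h2
  have : ((B.filter fun d => Disjoint b d ∧ Disjoint c d).card : ℤ) = 2 * k := by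
    simp only [nsmul_eq_mul] at h2; push_cast at h2; linarith
  exact_mod_cast this

end H10.Steiner22
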