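import Cfsg.Prelude.Def_Sporadic_a
import Cfsg.Agent.S0428

set_option autoImplicit false

/-! A strongly regular graph with parameters (100, 22, 0, 6) is the point-block graph of a Steiner system S(3, 6, 22). -/

namespace H10.HSGraph

open Finset Cfsg SimpleGraph

variable {V : Type*} [Fintype V] {G : SimpleGraph V} [DecidableRel G.Adj]

theorem card_common [DecidableEq V] {n k l m : ℕ} (hG : G.IsSRGWith n k l m) {v w : V} (hvw : v ≠ w) :
    (univ.filter fun x => G.Adj v x ∧ G.Adj w x).card = if G.Adj v w then l else m := by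
  have h1 : (univ.filter fun x => G.Adj v x ∧ G.Adj w x).card = Fintype.card (G.commonNeighbors v w) := by
    rw [← Set.toFinset_card]
    congr 1
    ext x
    simp [mem_commonNeighbors]
  rw [h1]
  split_ifs with h
  · exact hG.of_adj v w h
  · exact hG.of_not_adj hvw h

theorem card_adj [DecidableEq V] {n k l m : ℕ} (hG : G.IsSRGWith n k l m) (v : V) :
    (univ.filter fun x => G.Adj v x).card = k := by
  rw [← hG.regular v, ← card_neighborFinset_eq_degree]
  congr 1
  ext x
  simp

section

variable (G) (v0 : V)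

/-- the points: neighbours of the base vertex -/
abbrev Pt : Type _ := {a : V // G.Adj v0 a}

/-- the block of a vertex -/
def blk (w : V) : Finset (Pt G v0) := univ.filter fun a => G.Adj w a

/-- the vertices at distance two -/
def far [DecidableEq V] : Finset V := univ.filter fun w => w ≠ v0 ∧ ¬ G.Adj v0 w

def blocks : Set (Finset (Pt G v0)) := {b | ∃ w, w ≠ v0 ∧ ¬ G.Adj v0 w ∧ blk G v0 w = b}

variable {G v0}

theorem mem_blk {w : V} {a : Pt G v0} : a ∈ blk G v0 w ↔ G.Adj w a := by simp [blk]

theorem mem_far [DecidableEq V] {w : V} : w ∈ far G v0 ↔ w ≠ v0 ∧ ¬ G.Adj v0 w := by simp [far]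

variable [DecidableEq V] (hG : G.IsSRGWith 100 22 0 6)

include hG

omit [DecidableEq V] in
theorem card_pt : Fintype.card (Pt G v0) = 22 := by
  classical
  rw [Fintype.card_subtype]
  exact card_adj hG v0

omit [DecidableEq V] in
theorem no_triangle {a b c : V} (h1 : G.Adj a b) (h2 : G.Adj b c) (h3 : G.Adj a c) : False := by
  classical
  have h := card_common hG h3.ne
  rw [if_pos h3, card_eq_zero, filter_eq_empty_iff] at h
  exact h (mem_univ b) ⟨h1, h2.symm⟩

theorem card_far : (far G v0).card = 77 := by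
  have h1 : (univ : Finset V).card = 100 := by rw [card_univ]; exact hG.card
  have h2 : (univ : Finset V) = insert v0 ((univ.filter fun x => G.Adj v0 x) ∪ far G v0) := by
    ext x
    simp only [mem_univ, mem_insert, mem_union, mem_filter, true_and, mem_far, true_iff]
    by_cases h : x = v0
    · exact Or.inl h
    · by_cases h' : G.Adj v0 x
      · exact Or.inr (Or.inl h')
      · exact Or.inr (Or.inr ⟨h, h'⟩)
  rw [h2, card_insert_of_notMem, card_union_of_disjoint, card_adj hG] at h1
  · omega
  · rw [Finset.disjoint_left]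
    intro x hx hx'
    rw [mem_far] at hx'
    simp only [mem_filter, mem_univ, true_and] at hx
    exact hx'.2 hx
  · simp [mem_far]

theorem card_blk {w : V} (hw : w ∈ far G v0) : (blk G v0 w).card = 6 := by
  rw [mem_far] at hw
  have h := card_common hG hw.1.symm
  rw [if_neg hw.2] at h
  rw [← h]
  rw [← card_map ⟨Subtype.val, Subtype.val_injective⟩]
  congr 1
  ext x
  simp only [mem_map, mem_blk, Function.Embedding.coeFn_mk, mem_filter, mem_univ, true_and]
  constructor
  · rintro ⟨a, ha, rfl⟩; exact ⟨a.2, ha⟩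
  · rintro ⟨h1, h2⟩; exact ⟨⟨x, h1⟩, h2, rfl⟩

/-- each point is in 21 blocks -/
theorem card_single (a : Pt G v0) : ((far G v0).filter fun w => G.Adj w a).card = 21 := by
  have h := card_adj hG (a : V)
  have h2 : (univ.filter fun x => G.Adj (a : V) x) = insert v0 ((far G v0).filter fun w => G.Adj w a) := by
    ext x
    simp only [mem_filter, mem_univ, true_and, mem_insert, mem_far]
    constructor
    · intro hx
      by_cases h : x = v0
      · exact Or.inl h
      · exact Or.inr ⟨⟨h, fun h' => no_triangle hG a.2 hx h'⟩, hx.symm⟩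
    · rintro (rfl | h)
      · exact a.2.symm
      · exact h.2.symm
  rw [h2, card_insert_of_notMem (by simp [mem_far])] at h
  omega

/-- two points are in five common blocks -/
theorem card_pair {a a' : Pt G v0} (h : a ≠ a') : ((far G v0).filter fun w => G.Adj w a ∧ G.Adj w a').card = 5 := by
  have hne : (a : V) ≠ a' := fun h' => h (Subtype.ext h')
  have hna : ¬ G.Adj (a : V) a' := fun h' => no_triangle hG a.2 h' a'.2
  have h1 := card_common hG hne
  rw [if_neg hna] at h1
  have h2 : (univ.filter fun x => G.Adj (a : V) x ∧ G.Adj (a' : V) x) = insert v0 ((far G v0).filter fun w => G.Adj w a ∧ G.Adj w a') := by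
    ext x
    simp only [mem_filter, mem_univ, true_and, mem_insert, mem_far]
    constructor
    · intro hx
      by_cases h : x = v0
      · exact Or.inl h
      · exact Or.inr ⟨⟨h, fun h' => no_triangle hG a.2 hx.1 h'⟩, hx.1.symm, hx.2.symm⟩
    · rintro (rfl | h)
      · exact ⟨a.2.symm, a'.2.symm⟩
      · exact ⟨h.2.1.symm, h.2.2.symm⟩
  rw [h2, card_insert_of_notMem (by simp [mem_far])] at h1
  omega

/-- number of far neighbours of a far vertex -/
theorem card_far_adj {w : V} (hw : w ∈ far G v0) : ((far G v0).filter fun x => G.Adj w x).card = 16 := by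
  have h := card_adj hG w
  have h6 := card_blk hG hw
  have h1 : (blk G v0 w).card = ((univ.filter fun x => G.Adj w x) \ (far G v0)).card := by
    rw [← card_map ⟨Subtype.val, Subtype.val_injective⟩]
    congr 1
    rw [mem_far] at hw
    ext x
    simp only [mem_map, mem_blk, Function.Embedding.coeFn_mk, mem_filter, mem_univ, true_and, mem_sdiff, mem_far, not_and, not_not]
    constructor
    · rintro ⟨a, ha, rfl⟩; exact ⟨ha, fun _ => a.2⟩
    · rintro ⟨h1, h2⟩
      refine ⟨⟨x, h2 ?_⟩, h1, rfl⟩
      rintro rfl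
      exact hw.2 h1.symm
  have h2 : ((far G v0).filter fun x => G.Adj w x) = (univ.filter fun x => G.Adj w x) ∩ (far G v0) := by
    ext x; simp [and_comm]
  rw [h2]
  have h3 := card_sdiff_add_card_inter (univ.filter fun x => G.Adj w x) (far G v0)
  omega

theorem inter_of_adj {w w' : V} (h : G.Adj w w') : Disjoint (blk G v0 w) (blk G v0 w') := by
  rw [Finset.disjoint_left]
  intro a ha ha'
  rw [mem_blk] at ha ha'
  exact no_triangle hG h ha' ha

/-- nonadjacent far vertices have blocks meeting in two points -/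
theorem inter_of_not_adj {w w' : V} (hw : w ∈ far G v0) (hw' : w' ∈ far G v0) (hne : w ≠ w') (h : ¬ G.Adj w w') :
    (blk G v0 w' ∩ blk G v0 w).card = 2 := by
  set ind : V → Pt G v0 → ℤ := fun x a => if G.Adj x a then 1 else 0 with hind
  have hx : ∀ x, ((blk G v0 x ∩ blk G v0 w).card : ℤ) = ∑ a ∈ blk G v0 w, ind x a := by
    intro x
    rw [hind, sum_boole]
    congr 2
    ext a
    simp [mem_blk, and_comm]
  have hs : ∀ a, ∑ x ∈ far G v0, ind x a = 21 := by
    intro a
    rw [hind, sum_boole, card_single hG]; norm_num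
  have hp : ∀ a a', a ≠ a' → ∑ x ∈ far G v0, ind x a * ind x a' = 5 := by
    intro a a' haa
    have : ∀ x ∈ far G v0, ind x a * ind x a' = if G.Adj x a ∧ G.Adj x a' then 1 else 0 := by
      intro x _
      simp only [hind]
      by_cases h1 : G.Adj x a <;> by_cases h2 : G.Adj x a' <;> simp [h1, h2]
    rw [sum_congr rfl this, sum_boole, card_pair hG haa]; norm_num
  have h6 := card_blk hG hw
  have m1 : ∑ x ∈ far G v0, ((blk G v0 x ∩ blk G v0 w).card : ℤ) = 126 := by
    simp only [hx]
    rw [sum_comm, sum_congr rfl (fun a _ => hs a), sum_const, h6]; norm_num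
  have m2 : ∑ x ∈ far G v0, ((blk G v0 x ∩ blk G v0 w).card : ℤ) * ((blk G v0 x ∩ blk G v0 w).card : ℤ) = 276 := by
    simp only [hx, sum_mul_sum]
    rw [sum_comm]
    have : ∀ a ∈ blk G v0 w, ∑ x ∈ far G v0, ∑ a' ∈ blk G v0 w, ind x a * ind x a' = 46 := by
      intro a ha
      rw [sum_comm]
      have h5 : ∀ a' ∈ blk G v0 w, ∑ x ∈ far G v0, ind x a * ind x a' = 5 + 16 * (if a' = a then 1 else 0) := by
        intro a' _
        split_ifs with haa
        · subst haa
          have : ∀ x ∈ far G v0, ind x a' * ind x a' = ind x a' := by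
            intro x _
            simp only [hind]; split_ifs <;> simp
          rw [sum_congr rfl this, hs]; norm_num
        · rw [hp a a' (Ne.symm haa)]; norm_num
      rw [sum_congr rfl h5, sum_add_distrib, ← mul_sum, sum_ite_eq', if_pos ha, sum_const, h6]; norm_num
    rw [sum_congr rfl this, sum_const, h6]; norm_num
  have hadj : ∀ x, G.Adj w x → ((blk G v0 x ∩ blk G v0 w).card : ℤ) = 0 := by
    intro x hx'
    have := inter_of_adj hG (v0 := v0) hx'
    rw [disjoint_comm, disjoint_iff_inter_eq_empty] at this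
    rw [this]; rfl
  have tot : ∑ x ∈ (far G v0).erase w, ((((blk G v0 x ∩ blk G v0 w).card : ℤ) - 2) ^ 2 - (if G.Adj w x then 4 else 0)) = 0 := by
    have e1 : ∑ x ∈ far G v0, ((((blk G v0 x ∩ blk G v0 w).card : ℤ) - 2) ^ 2 - (if G.Adj w x then 4 else 0)) = 16 := by
      have : ∀ x ∈ far G v0, ((((blk G v0 x ∩ blk G v0 w).card : ℤ) - 2) ^ 2 - (if G.Adj w x then 4 else 0)) =
          ((blk G v0 x ∩ blk G v0 w).card : ℤ) * ((blk G v0 x ∩ blk G v0 w).card : ℤ) - 4 * ((blk G v0 x ∩ blk G v0 w).card : ℤ) + 4
            - 4 * (if G.Adj w x then 1 else 0) := by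
        intro x _
        split_ifs <;> ring
      rw [sum_congr rfl this, sum_sub_distrib, sum_add_distrib, sum_sub_distrib, ← mul_sum, ← mul_sum, m1, m2, sum_boole,
        card_far_adj hG hw, sum_const, card_far hG]
      norm_num
    rw [← add_sum_erase _ _ hw, inter_self, h6, if_neg (G.loopless.irrefl w)] at e1
    push_cast at e1 ⊢
    linarith
  have hnn : ∀ x ∈ (far G v0).erase w, 0 ≤ ((((blk G v0 x ∩ blk G v0 w).card : ℤ) - 2) ^ 2 - (if G.Adj w x then 4 else 0)) := by
    intro x _
    split_ifs with hx'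
    · rw [hadj x hx']; norm_num
    · simp only [sub_zero]; positivity
  have := (sum_eq_zero_iff_of_nonneg hnn).1 tot w' (mem_erase.2 ⟨hne.symm, hw'⟩)
  rw [if_neg h, sub_zero] at this
  have h7 : (((blk G v0 w' ∩ blk G v0 w).card : ℤ) - 2) = 0 := by
    exact pow_eq_zero_iff (two_ne_zero) |>.1 this
  omega

theorem blk_injOn {w w' : V} (hw : w ∈ far G v0) (hw' : w' ∈ far G v0) (h : blk G v0 w = blk G v0 w') : w = w' := by
  by_contra hne
  have h6 := card_blk hG hw
  by_cases hadj : G.Adj w w'
  · have := inter_of_adj hG (v0 := v0) hadj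
    rw [← h, disjoint_self] at this
    rw [this] at h6; simp at h6
  · have := inter_of_not_adj hG hw hw' hne hadj
    rw [← h, inter_self, h6] at this
    omega

theorem isSteinerSystem : IsSteinerSystem 3 6 (blocks G v0) := by
  refine ⟨?_, ?_⟩
  · rintro b ⟨w, h1, h2, rfl⟩
    exact card_blk hG (mem_far.2 ⟨h1, h2⟩)
  · intro s hs
    obtain ⟨x, y, z, hxy, hxz, hyz, rfl⟩ := card_eq_three.1 hs
    -- the five blocks through x, y
    have h5 := card_pair hG hxy
    set F := (far G v0).filter fun w => G.Adj w x ∧ G.Adj w y with hF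
    have hFm : ∀ w ∈ F, w ∈ far G v0 ∧ x ∈ blk G v0 w ∧ y ∈ blk G v0 w := by
      intro w hw
      rw [hF, mem_filter] at hw
      exact ⟨hw.1, mem_blk.2 hw.2.1, mem_blk.2 hw.2.2⟩
    -- they cover all other points
    have hdisj : ∀ w ∈ F, ∀ w' ∈ F, w ≠ w' → Disjoint (blk G v0 w \ {x, y}) (blk G v0 w' \ {x, y}) := by
      intro w hw w' hw' hne
      obtain ⟨a1, a2, a3⟩ := hFm w hw
      obtain ⟨b1, b2, b3⟩ := hFm w' hw'
      have hna : ¬ G.Adj w w' := by
        intro h
        have := inter_of_adj hG (v0 := v0) h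
        exact Finset.disjoint_left.1 this a2 b2
      have h2 := inter_of_not_adj hG b1 a1 hne.symm (fun h => hna h.symm)
      have h3 : blk G v0 w ∩ blk G v0 w' = {x, y} := by
        symm
        apply eq_of_subset_of_card_le
        · intro t ht
          rw [mem_insert, mem_singleton] at ht
          rcases ht with rfl | rfl
          · exact mem_inter.2 ⟨a2, b2⟩
          · exact mem_inter.2 ⟨a3, b3⟩
        · rw [h2, Finset.card_pair hxy]
      rw [Finset.disjoint_left]
      intro t ht ht'
      rw [mem_sdiff] at ht ht'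
      apply ht.2
      rw [← h3]
      exact mem_inter.2 ⟨ht.1, ht'.1⟩
    have hcard : (F.biUnion fun w => blk G v0 w \ {x, y}).card = 20 := by
      rw [card_biUnion hdisj]
      have : ∀ w ∈ F, (blk G v0 w \ {x, y}).card = 4 := by
        intro w hw
        obtain ⟨a1, a2, a3⟩ := hFm w hw
        rw [card_sdiff_of_subset, card_blk hG a1, Finset.card_pair hxy]
        intro t ht
        rw [mem_insert, mem_singleton] at ht
        rcases ht with rfl | rfl <;> assumption
      rw [sum_congr rfl this, sum_const, h5]; rfl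
    have hcov : (F.biUnion fun w => blk G v0 w \ {x, y}) = univ \ {x, y} := by
      apply eq_of_subset_of_card_le
      · intro t ht
        rw [mem_biUnion] at ht
        obtain ⟨w, hw, ht⟩ := ht
        rw [mem_sdiff] at ht ⊢
        exact ⟨mem_univ _, ht.2⟩
      · rw [hcard, card_sdiff_of_subset (subset_univ _), card_univ, card_pt hG, Finset.card_pair hxy]
    have hz : z ∈ (F.biUnion fun w => blk G v0 w \ {x, y}) := by
      rw [hcov, mem_sdiff]
      refine ⟨mem_univ _, ?_⟩
      rw [mem_insert, mem_singleton]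
      rintro (h | h)
      · exact hxz h.symm
      · exact hyz h.symm
    rw [mem_biUnion] at hz
    obtain ⟨w, hw, hz⟩ := hz
    obtain ⟨a1, a2, a3⟩ := hFm w hw
    rw [mem_far] at a1
    refine ⟨blk G v0 w, ⟨⟨w, a1.1, a1.2, rfl⟩, ?_⟩, ?_⟩
    · intro t ht
      simp only [mem_insert, mem_singleton] at ht
      rcases ht with rfl | rfl | rfl
      · exact a2
      · exact a3
      · exact (mem_sdiff.1 hz).1
    · rintro c ⟨⟨w', b1, b2, rfl⟩, hc⟩
      have hx' : x ∈ blk G v0 w' := hc (by simp)
      have hy' : y ∈ blk G v0 w' := hc (by simp)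
      have hz' : z ∈ blk G v0 w' := hc (by simp)
      by_contra hne
      have hww : w ≠ w' := fun h => hne (by rw [h])
      have hw' : w' ∈ F := by
        rw [hF, mem_filter]
        exact ⟨mem_far.2 ⟨b1, b2⟩, mem_blk.1 hx', mem_blk.1 hy'⟩
      have := hdisj w hw w' hw' hww
      exact Finset.disjoint_left.1 this hz (mem_sdiff.2 ⟨hz', (mem_sdiff.1 hz).2⟩)


omit [DecidableEq V] in
/-- the graph is the point-block graph of its Steiner system -/
theorem nonempty_iso : Nonempty (pointBlockGraph (blocks G v0) ≃g G) := by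
  classical
  have hne : ∀ b ∈ blocks G v0, b.Nonempty := by
    rintro b ⟨w, h1, h2, rfl⟩
    rw [← card_pos, card_blk hG (mem_far.2 ⟨h1, h2⟩)]; norm_num
  choose w hw1 hw2 hw3 using fun b : blocks G v0 => b.2
  have hwf : ∀ b, w b ∈ far G v0 := fun b => mem_far.2 ⟨hw1 b, hw2 b⟩
  let f : Option (Pt G v0 ⊕ blocks G v0) → V
    | none => v0
    | some (Sum.inl a) => a
    | some (Sum.inr b) => w b
  have hinj : Function.Injective f := by
    intro p q hpq
    rcases p with _ | a | b <;> rcases q with _ | a' | b'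
    · rfl
    · exact absurd hpq a'.2.ne
    · exact absurd hpq.symm (hw1 b')
    · exact absurd hpq.symm a.2.ne
    · have : a = a' := Subtype.ext hpq
      rw [this]
    · have h : G.Adj v0 (w b') := by
        have h1 : (a : V) = w b' := hpq
        rw [← h1]; exact a.2
      exact absurd h (hw2 b')
    · exact absurd hpq (hw1 b)
    · have h : G.Adj v0 (w b) := by
        have h1 : w b = (a' : V) := hpq
        rw [h1]; exact a'.2
      exact absurd h (hw2 b)
    · have h1 : w b = w b' := hpq
      have : b = b' := by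
        apply Subtype.ext
        rw [← hw3 b, ← hw3 b', h1]
      rw [this]
  have hsurj : Function.Surjective f := by
    intro v
    by_cases h : v = v0
    · exact ⟨none, h.symm⟩
    · by_cases h' : G.Adj v0 v
      · exact ⟨some (Sum.inl ⟨v, h'⟩), rfl⟩
      · refine ⟨some (Sum.inr ⟨blk G v0 v, ⟨v, h, h', rfl⟩⟩), ?_⟩
        show w _ = v
        exact blk_injOn hG (hwf _) (mem_far.2 ⟨h, h'⟩) (hw3 _)
  have hbb : ∀ b c : blocks G v0, G.Adj (w b) (w c) ↔ Disjoint (b : Finset (Pt G v0)) c := by
    intro b c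
    constructor
    · intro h
      have := inter_of_adj hG (v0 := v0) h
      rwa [hw3, hw3] at this
    · intro h
      by_contra hna
      by_cases hbc : w b = w c
      · have h1 : (b : Finset (Pt G v0)) = c := by rw [← hw3 b, ← hw3 c, hbc]
        rw [h1, disjoint_self] at h
        exact (hne c c.2).ne_empty h
      · have := inter_of_not_adj hG (hwf b) (hwf c) hbc hna
        rw [hw3, hw3, inter_comm, disjoint_iff_inter_eq_empty.1 h] at this
        simp at this
  refine ⟨⟨Equiv.ofBijective f ⟨hinj, hsurj⟩, ?_⟩⟩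
  intro p q
  show G.Adj (f p) (f q) ↔ _
  rcases p with _ | a | b <;> rcases q with _ | a' | b'
  · exact iff_of_false (G.loopless.irrefl v0) Cfsg.Agent.S0428.adj_none_none
  · exact iff_of_true a'.2 (Cfsg.Agent.S0428.adj_none_inl a')
  · exact iff_of_false (hw2 b') (Cfsg.Agent.S0428.adj_none_inr b')
  · exact iff_of_true a.2.symm (Cfsg.Agent.S0428.adj_none_inl a).symm
  · exact iff_of_false (fun h => no_triangle hG a.2 h a'.2) (Cfsg.Agent.S0428.adj_inl_inl a a')
  · rw [Cfsg.Agent.S0428.adj_inl_inr]
    show G.Adj (a : V) (w b') ↔ _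
    rw [← hw3 b', mem_blk, G.adj_comm]
  · exact iff_of_false (fun h => hw2 b h.symm) (fun h => Cfsg.Agent.S0428.adj_none_inr b h.symm)
  · rw [SimpleGraph.adj_comm (pointBlockGraph (blocks G v0)), Cfsg.Agent.S0428.adj_inl_inr]
    show G.Adj (w b) (a' : V) ↔ _
    rw [show ((a' ∈ (b : Finset (Pt G v0))) ↔ a' ∈ blk G v0 (w b)) from by rw [hw3], mem_blk]
  · rw [Cfsg.Agent.S0428.adj_inr_inr hne]
    exact hbb b b'

end

end H10.HSGraph
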