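import Cfsg.Agent.Lib.H10.HeSpComp
import Cfsg.Agent.Lib.H10.J3Unitary
import Cfsg.Agent.Lib.H35.HeMain

set_option autoImplicit false
set_option linter.unusedSectionVars false

/-! The subgroup of index 2058 of He is an extension of `Sp4(4)` by a group of order 2. -/

namespace H10.HeSp

open H10.BitPar H10.BitOrb H10.J3Comp H10.J3Order H10.J3Model H10.HeSpData H10.F4Vec H35.Net H35.HeMain
open H35.TCHeA (Lt subs)

variable {F : Type} [Field F] [Fintype F] (hF : Fintype.card F = 4) {ω : F} (h : Good ω)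

/-! ### blocks -/

/-- the block of a vector -/
noncomputable def blk (v : V4 F) : Set ℕ := {b | (bm (code (coding4 hF h) v)).testBit b = true}

theorem rep_spec {x : ℕ} (hx : x < 256) (hx0 : x ≠ 0) : mult x (rx x) = true ∧ rx x ∈ RL ∧ bm (runF os x) = bm x := by
  have h1 := rep_eq
  unfold repChk at h1
  rw [List.all_eq_true] at h1
  have h2 := h1 x (List.mem_range.2 hx)
  cases h3 : Nat.beq x 0 with
  | true => exact absurd (Nat.eq_of_beq_eq_true h3) hx0
  | false =>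
    rw [h3] at h2
    simp only [cond_false] at h2
    obtain ⟨h4, h5⟩ := cond_tt h2
    obtain ⟨h6, h7⟩ := cond_tt h5
    refine ⟨h4, ?_, Nat.eq_of_beq_eq_true h7⟩
    rw [List.any_eq_true] at h6
    obtain ⟨y, hy, h8⟩ := h6
    rw [Nat.eq_of_beq_eq_true h8]; exact hy

theorem RL_lt : ∀ x ∈ RL, x < 256 := by decide +kernel

theorem blk_dec {x : ℕ} (hx : x < 2 ^ 8) (b : ℕ) : b ∈ blk hF h (dec4 ω x) ↔ (bm x).testBit b = true := by
  show (bm (code (coding4 hF h) (dec4 ω x))).testBit b = true ↔ _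
  rw [code_dec (coding4 hF h) hx]

theorem bm_zero : bm 0 = 0 := by decide +kernel

theorem bm_os {x : ℕ} (hx : x < 2 ^ 8) : bm (runF os x) = bm x := by
  rcases Nat.eq_zero_or_pos x with h0 | h0
  · subst h0
    rfl
  · exact (rep_spec hx (by omega)).2.2

theorem blk_os (v : V4 F) : blk hF h (ω • v) = blk hF h v := by
  have hc := coding4 hF h
  obtain ⟨x, hx, rfl⟩ := hc.surj v
  rw [← act_os hF h, act_dec hc ok_os hx]
  ext b
  rw [blk_dec hF h (runF_lt ok_os hx), blk_dec hF h hx, bm_os hx]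

include hF h in
theorem mult_spec {x y : ℕ} (hx : x < 2 ^ 8) (hm : mult y x = true) :
    dec4 ω y = dec4 ω x ∨ dec4 ω y = ω • dec4 ω x ∨ dec4 ω y = ω • ω • dec4 ω x := by
  have hc := coding4 hF h
  have h1 : dec4 ω (runF os x) = ω • dec4 ω x := by rw [← act_os hF h, act_dec hc ok_os hx]
  have h2 : dec4 ω (runF os (runF os x)) = ω • ω • dec4 ω x := by
    rw [← h1, ← act_os hF h, act_dec hc ok_os (runF_lt ok_os hx)]
  unfold mult at hm
  cases h3 : Nat.beq y x with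
  | true => left; rw [Nat.eq_of_beq_eq_true h3]
  | false =>
    rw [h3] at hm
    simp only [cond_false] at hm
    cases h4 : Nat.beq y (runF os x) with
    | true => right; left; rw [Nat.eq_of_beq_eq_true h4]; exact h1
    | false =>
      rw [h4] at hm
      simp only [cond_false] at hm
      right; right; rw [Nat.eq_of_beq_eq_true hm]; exact h2

/-! ### compatible pairs -/

/-- compatibility of a permutation of the points with a permutation of the vectors -/
def Pr (p : Equiv.Perm ℕ) (M : Equiv.Perm (V4 F)) : Prop := ∀ v b, p b ∈ blk hF h (M v) ↔ b ∈ blk hF h v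

theorem Pr.one : Pr hF h 1 1 := fun _ _ => Iff.rfl

theorem Pr.mul {p q : Equiv.Perm ℕ} {M N : Equiv.Perm (V4 F)} (h1 : Pr hF h p M) (h2 : Pr hF h q N) :
    Pr hF h (p * q) (M * N) := by
  intro v b
  show p (q b) ∈ blk hF h (M (N v)) ↔ _
  rw [h1, h2]

theorem Pr.inv {p : Equiv.Perm ℕ} {M : Equiv.Perm (V4 F)} (h1 : Pr hF h p M) : Pr hF h p⁻¹ M⁻¹ := by
  intro v b
  rw [← h1 (M⁻¹ v) (p⁻¹ b)]
  show p (p.symm b) ∈ blk hF h (M (M.symm v)) ↔ _
  rw [Equiv.apply_symm_apply, Equiv.apply_symm_apply]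

/-- the checks on the 85 representatives give compatibility -/
theorem pr_of_reps {p : Equiv.Perm ℕ} {l : List (ℕ × ℕ)} {e : Bool} (hl : chkS e l = true)
    (hok : okOps 8 l = true)
    (hr : ∀ x ∈ RL, ∀ b, (bm (runF l x)).testBit (p b) = (bm x).testBit b) :
    Pr hF h p (act (coding4 hF h) l) := by
  have hc := coding4 hF h
  have hs := slin_of_chk hF h hl
  have hR : ∀ x ∈ RL, ∀ b, p b ∈ blk hF h (act hc l (dec4 ω x)) ↔ b ∈ blk hF h (dec4 ω x) := by
    intro x hx b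
    have hx' := RL_lt x hx
    rw [act_dec hc hok hx', blk_dec hF h (runF_lt hok hx'), blk_dec hF h hx', hr x hx b]
  -- invariance under scalars
  have hω2 : ∀ v : V4 F, blk hF h (ω • ω • v) = blk hF h v := by
    intro v; rw [blk_os, blk_os]
  have hMω : ∀ v : V4 F, blk hF h (act hc l (ω • v)) = blk hF h (act hc l v) := by
    intro v
    rw [hs.smul]
    cases e
    · exact blk_os hF h _
    · show blk hF h ((ω ^ 2) • _) = _
      rw [pow_two, mul_smul]; exact hω2 _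
  intro v b
  obtain ⟨x, hx, rfl⟩ := hc.surj v
  rcases Nat.eq_zero_or_pos x with h0 | h0
  · subst h0
    have e0 : dec4 ω 0 = 0 := dec_zero hc
    have e1 : act hc l (dec4 ω 0) = dec4 ω 0 := by
      rw [act_dec hc hok hx]
      have : runF l 0 = 0 := by
        have := runF_xor l 0 0
        rw [Nat.xor_self] at this
        rw [this, Nat.xor_self]
      rw [this]
    rw [e1, blk_dec hF h hx, blk_dec hF h hx, bm_zero, Nat.zero_testBit, Nat.zero_testBit]
  · obtain ⟨h1, h2, -⟩ := rep_spec hx (by omega)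
    have h3 := RL_lt _ h2
    rcases mult_spec hF h h3 h1 with h4 | h4 | h4
    · rw [h4]; exact hR _ h2 b
    · rw [h4, hMω, blk_os]; exact hR _ h2 b
    · rw [h4, hMω, hMω, blk_os, blk_os]; exact hR _ h2 b

/-! ### the generators -/

theorem pairChk_spec {L : List ℕ} {w : List Lt} {l : List (ℕ × ℕ)} (hp : pairChk L w l = true) {x : ℕ} (hx : x ∈ L) (b : ℕ) :
    (bm (runF l x)).testBit ((w.map H35.NHe.π).prod b) = (bm x).testBit b := by
  unfold pairChk at hp
  rw [List.all_eq_true] at hp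
  have h1 := hp x hx
  simp only [force_eq] at h1
  have h2 := Nat.eq_of_beq_eq_true h1
  rw [appF_eq] at h2
  rw [← (app_BP H35.NHe.hbp w).bit, h2]

theorem pairsChk_cons {L : List ℕ} {w : List Lt} {ws : List (List Lt)} {l : List (ℕ × ℕ)} {ls : List (List (ℕ × ℕ))}
    (hp : pairsChk L (w :: ws) (l :: ls) = true) : pairChk L w l = true ∧ pairsChk L ws ls = true :=
  cond_tt hp

/-- the pairs of generators -/
def PL : List (List Lt × List (ℕ × ℕ)) := subs.zip g7

theorem pairsChk_zip {L : List ℕ} {ws : List (List Lt)} {ls : List (List (ℕ × ℕ))} (hp : pairsChk L ws ls = true) :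
    ∀ p ∈ ws.zip ls, pairChk L p.1 p.2 = true := by
  induction ws generalizing ls with
  | nil => intro p hp'; simp at hp'
  | cons w ws ih =>
    cases ls with
    | nil => intro p hp'; simp at hp'
    | cons l ls =>
      obtain ⟨h1, h2⟩ := pairsChk_cons hp
      intro p hp'
      rw [List.zip_cons_cons, List.mem_cons] at hp'
      rcases hp' with rfl | hp'
      · exact h1
      · exact ih h2 p hp'

theorem pairs_all {k : ℕ} (hk : k < 11) : pairsChk (ch k) subs g7 = true := by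
  interval_cases k
  · exact pe0
  · exact pe1
  · exact pe2
  · exact pe3
  · exact pe4
  · exact pe5
  · exact pe6
  · exact pe7
  · exact pe8
  · exact pe9
  · exact pe10

theorem reps_spec {p : List Lt × List (ℕ × ℕ)} (hp : p ∈ PL) {x : ℕ} (hx : x ∈ RL) (b : ℕ) :
    (bm (runF p.2 x)).testBit ((p.1.map H35.NHe.π).prod b) = (bm x).testBit b := by
  have h1 := mem_ch
  rw [List.all_eq_true] at h1
  have h2 := h1 x hx
  rw [List.any_eq_true] at h2
  obtain ⟨k, hk, h3⟩ := h2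
  rw [List.any_eq_true] at h3
  obtain ⟨y, hy, h4⟩ := h3
  rw [Nat.eq_of_beq_eq_true h4]
  exact pairChk_spec (pairsChk_zip (pairs_all (List.mem_range.1 hk)) p hp) hy b

/-- sign of a generator -/
def sg (l : List (ℕ × ℕ)) : Bool := cond (chkS false l) false true

theorem g7_chk {l : List (ℕ × ℕ)} (hl : l ∈ g7) : ∃ e, chkS e l = true := by
  simp only [g7, List.mem_cons, List.mem_nil_iff, or_false] at hl
  rcases hl with rfl | rfl | rfl | rfl | rfl | rfl | rfl
  · exact ⟨_, sa⟩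
  · exact ⟨_, sc'⟩
  · exact ⟨_, sd⟩
  · exact ⟨_, se⟩
  · exact ⟨_, sf⟩
  · exact ⟨_, sp⟩
  · exact ⟨_, sq⟩

theorem PL_left {p : List Lt × List (ℕ × ℕ)} (hp : p ∈ PL) : p.1 ∈ subs := (List.of_mem_zip hp).1
theorem PL_right {p : List Lt × List (ℕ × ℕ)} (hp : p ∈ PL) : p.2 ∈ g7 := (List.of_mem_zip hp).2

theorem exists_left {w : List Lt} (hw : w ∈ subs) : ∃ l, (w, l) ∈ PL := by
  simp only [subs, List.mem_cons, List.mem_nil_iff, or_false] at hw
  rcases hw with rfl | rfl | rfl | rfl | rfl | rfl | rfl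
  · exact ⟨oa, by simp [PL, subs, g7]⟩
  · exact ⟨oc, by simp [PL, subs, g7]⟩
  · exact ⟨od, by simp [PL, subs, g7]⟩
  · exact ⟨oe, by simp [PL, subs, g7]⟩
  · exact ⟨of, by simp [PL, subs, g7]⟩
  · exact ⟨op, by simp [PL, subs, g7]⟩
  · exact ⟨oq, by simp [PL, subs, g7]⟩

theorem exists_right {l : List (ℕ × ℕ)} (hl : l ∈ g7) : ∃ w, (w, l) ∈ PL := by
  simp only [g7, List.mem_cons, List.mem_nil_iff, or_false] at hl
  rcases hl with rfl | rfl | rfl | rfl | rfl | rfl | rfl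
  · exact ⟨[.a], by simp [PL, subs, g7]⟩
  · exact ⟨[.c], by simp [PL, subs, g7]⟩
  · exact ⟨[.d], by simp [PL, subs, g7]⟩
  · exact ⟨[.e], by simp [PL, subs, g7]⟩
  · exact ⟨[.f], by simp [PL, subs, g7]⟩
  · exact ⟨[.a, .b, .a, .b], by simp [PL, subs, g7]⟩
  · exact ⟨[.b, .c, .d, .e, .b, .c, .d, .e, .b, .c, .d, .e, .b, .c, .d, .e, .b, .c, .d, .e, .b, .c, .d, .e, .b, .c, .d, .e],
      by simp [PL, subs, g7]⟩

/-- the group of compatible pairs -/
noncomputable def RR2 : Subgroup (Cfsg.Spor.He × Equiv.Perm (V4 F)) :=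
  Subgroup.closure {r | ∃ p ∈ PL, r = ((p.1.map gP).prod, act (coding4 hF h) p.2)}

noncomputable abbrev G7 : Subgroup (Equiv.Perm (V4 F)) := gen (coding4 hF h) g7

theorem RR2_left {r : Cfsg.Spor.He × Equiv.Perm (V4 F)} (hr : r ∈ RR2 hF h) : r.1 ∈ HS := by
  unfold RR2 at hr
  induction hr using Subgroup.closure_induction with
  | mem r hr =>
    obtain ⟨p, hp, rfl⟩ := hr
    exact Subgroup.subset_closure ⟨p.1, PL_left hp, rfl⟩
  | one => exact HS.one_mem
  | mul a b _ _ ha hb => exact HS.mul_mem ha hb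
  | inv a _ ha => exact HS.inv_mem ha

theorem RR2_right {r : Cfsg.Spor.He × Equiv.Perm (V4 F)} (hr : r ∈ RR2 hF h) : r.2 ∈ G7 hF h := by
  unfold RR2 at hr
  induction hr using Subgroup.closure_induction with
  | mem r hr =>
    obtain ⟨p, hp, rfl⟩ := hr
    exact act_mem_gen _ (PL_right hp)
  | one => exact (G7 hF h).one_mem
  | mul a b _ _ ha hb => exact (G7 hF h).mul_mem ha hb
  | inv a _ ha => exact (G7 hF h).inv_mem ha

theorem RR2_pr {r : Cfsg.Spor.He × Equiv.Perm (V4 F)} (hr : r ∈ RR2 hF h) :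
    (∃ e, SLin r.2 e) ∧ Pr hF h (φ r.1) r.2 := by
  unfold RR2 at hr
  induction hr using Subgroup.closure_induction with
  | mem r hr =>
    obtain ⟨p, hp, rfl⟩ := hr
    obtain ⟨e, he⟩ := g7_chk (PL_right hp)
    refine ⟨⟨e, slin_of_chk hF h he⟩, ?_⟩
    show Pr hF h (φ ((p.1.map gP).prod)) _
    rw [map_word hφ]
    exact pr_of_reps hF h he (okAll_mem ok_g7 _ (PL_right hp)) (fun x hx b => reps_spec hp hx b)
  | one => refine ⟨⟨_, SLin.one⟩, ?_⟩; show Pr hF h (φ 1) 1; rw [map_one]; exact Pr.one hF h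
  | mul a b _ _ ha hb =>
    obtain ⟨⟨e, he⟩, ha⟩ := ha
    obtain ⟨⟨e', he'⟩, hb⟩ := hb
    refine ⟨⟨_, he.mul h he'⟩, ?_⟩
    show Pr hF h (φ (a.1 * b.1)) _
    rw [map_mul]
    exact Pr.mul hF h ha hb
  | inv a _ ha =>
    obtain ⟨⟨e, he⟩, ha⟩ := ha
    refine ⟨⟨_, he.inv h⟩, ?_⟩
    show Pr hF h (φ (a.1⁻¹)) _
    rw [map_inv]
    exact Pr.inv hF h ha

theorem left_surj {x : Cfsg.Spor.He} (hx : x ∈ HS) : ∃ r ∈ RR2 hF h, r.1 = x := by
  have : HS ≤ (RR2 hF h).map (MonoidHom.fst _ _) := by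
    unfold HS
    rw [Subgroup.closure_le]
    rintro _ ⟨w, hw, rfl⟩
    obtain ⟨l, hl⟩ := exists_left hw
    exact ⟨_, Subgroup.subset_closure ⟨_, hl, rfl⟩, rfl⟩
  obtain ⟨r, hr, rfl⟩ := this hx
  exact ⟨r, hr, rfl⟩

theorem right_surj {M : Equiv.Perm (V4 F)} (hM : M ∈ G7 hF h) : ∃ r ∈ RR2 hF h, r.2 = M := by
  have : G7 hF h ≤ (RR2 hF h).map (MonoidHom.snd _ _) := by
    refine gen_le _ ?_
    intro l hl
    obtain ⟨w, hw⟩ := exists_right hl
    exact ⟨_, Subgroup.subset_closure ⟨_, hw, rfl⟩, rfl⟩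
  obtain ⟨r, hr, rfl⟩ := this hM
  exact ⟨r, hr, rfl⟩

/-! ### uniqueness -/

theorem uniq_spec {x y : ℕ} (hx : x ∈ testL) (hy : y < 256) (hxy : bm y = bm x) : mult y x = true := by
  have h1 := uniq_eq
  unfold uniqChk at h1
  rw [List.all_eq_true] at h1
  have h2 := h1 x hx
  rw [List.all_eq_true] at h2
  have h3 := h2 y (List.mem_range.2 hy)
  have h4 : Nat.beq (bm y) (bm x) = true := by rw [hxy]; exact Nat.beq_refl _
  rw [h4] at h3
  exact h3

theorem blk_eq {x y : ℕ} (hx : x < 2 ^ 8) (hy : y < 2 ^ 8) (hb : blk hF h (dec4 ω y) = blk hF h (dec4 ω x)) : bm y = bm x := by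
  apply Nat.eq_of_testBit_eq
  intro b
  have h1 := blk_dec hF h hx b
  have h2 := blk_dec hF h hy b
  rw [hb] at h2
  exact Bool.eq_iff_iff.2 (h2.symm.trans h1)

/-- a scalar -/
theorem exists_scalar {M : Equiv.Perm (V4 F)} (hb : ∀ v, blk hF h (M v) = blk hF h v) {x : ℕ} (hx : x ∈ testL) :
    ∃ c : F, c ≠ 0 ∧ M (dec4 ω x) = c • dec4 ω x := by
  have hc := coding4 hF h
  have hx' : x < 2 ^ 8 := by
    simp only [testL, List.mem_cons, List.mem_nil_iff, or_false] at hx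
    rcases hx with rfl | rfl | rfl | rfl | rfl | rfl | rfl | rfl <;> norm_num
  obtain ⟨y, hy, hyM⟩ := hc.surj (M (dec4 ω x))
  have h1 := hb (dec4 ω x)
  rw [← hyM] at h1
  have h2 := uniq_spec hx hy (blk_eq hF h hx' hy h1)
  rw [← hyM]
  rcases mult_spec hF h hx' h2 with h3 | h3 | h3
  · exact ⟨1, one_ne_zero, by rw [h3, one_smul]⟩
  · exact ⟨ω, h.ne0, h3⟩
  · exact ⟨ω * ω, mul_ne_zero h.ne0 h.ne0, by rw [h3, mul_smul]⟩

theorem dec_e (i : Fin 2 ⊕ Fin 2) : dec4 ω (4 ^ k4 i) = (Pi.single i 1 : V4 F) := by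
  have key : ∀ i z : Fin 2 ⊕ Fin 2, (4 ^ k4 i).testBit (2 * k4 z) = decide (z = i) ∧
      (4 ^ k4 i).testBit (2 * k4 z + 1) = false := by decide
  funext z
  show bb ω ((4 ^ k4 i).testBit (2 * k4 z)) ((4 ^ k4 i).testBit (2 * k4 z + 1)) = _
  rw [(key i z).1, (key i z).2, Pi.single_apply]
  by_cases hz : z = i
  · simp [hz, bb]
  · simp [hz, bb]

theorem mem_testL (i : Fin 2 ⊕ Fin 2) : 4 ^ k4 i ∈ testL := by
  revert i; decide

/-- compatibility with the trivial permutation forces triviality -/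
theorem eq_one_of_blk {M : Equiv.Perm (V4 F)} {e : Bool} (hM : SLin M e) (hb : ∀ v, blk hF h (M v) = blk hF h v) : M = 1 := by
  classical
  have hc := coding4 hF h
  have hsc : ∀ i : Fin 2 ⊕ Fin 2, ∃ c : F, c ≠ 0 ∧ M (Pi.single i 1) = c • (Pi.single i 1 : V4 F) := by
    intro i
    obtain ⟨c, hc0, h1⟩ := exists_scalar hF h hb (mem_testL i)
    rw [dec_e] at h1
    exact ⟨c, hc0, h1⟩
  choose c hc0 hMc using hsc
  have hsum : ∀ (i : Fin 2 ⊕ Fin 2) (x : ℕ), i ≠ Sum.inl 0 → x ∈ testL → x = 4 ^ k4 (Sum.inl 0) ^^^ 4 ^ k4 i → c i = c (Sum.inl 0) := by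
    intro i x hi hx hxe
    obtain ⟨d, hd0, h1⟩ := exists_scalar hF h hb hx
    rw [hxe, hc.xor, dec_e, dec_e, hM.add, hMc, hMc] at h1
    have h2 := congrFun h1 (Sum.inl 0)
    have h3 := congrFun h1 i
    simp only [Pi.add_apply, Pi.smul_apply, Pi.single_apply, smul_eq_mul, if_neg hi, if_neg (Ne.symm hi), if_true, mul_one,
      mul_zero, add_zero, zero_add] at h2 h3
    rw [h3, h2]
  have hall : ∀ i, c i = c (Sum.inl 0) := by
    intro i
    rcases i with i | i
    · fin_cases i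
      · rfl
      · exact hsum _ 5 (by decide) (by decide) (by decide)
    · fin_cases i
      · exact hsum _ 17 (by decide) (by decide) (by decide)
      · exact hsum _ 65 (by decide) (by decide) (by decide)
  set c0 := c (Sum.inl 0) with hc00
  -- the field automorphism is trivial
  have he : sF e ω = ω := by
    obtain ⟨d, hd0, h1⟩ := exists_scalar hF h hb (x := 9) (by decide)
    have h8 : dec4 ω 8 = ω • (Pi.single (Sum.inl 1) 1 : V4 F) := by
      rw [← dec_e (ω := ω), ← act_os hF h, act_dec hc ok_os (by decide)]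
      congr 1
    have h9 : dec4 ω 9 = (Pi.single (Sum.inl 0) 1 : V4 F) + ω • (Pi.single (Sum.inl 1) 1 : V4 F) := by
      rw [← h8, ← dec_e (ω := ω), ← hc.xor]
      congr 1
    rw [h9, hM.add, hM.smul, hMc, hMc, hall (Sum.inl 1)] at h1
    have h2 := congrFun h1 (Sum.inl 0)
    have h3 := congrFun h1 (Sum.inl 1)
    have hne : (Sum.inl 0 : Fin 2 ⊕ Fin 2) ≠ Sum.inl 1 := by decide
    simp only [Pi.add_apply, Pi.smul_apply, Pi.single_apply, smul_eq_mul, if_neg hne, if_neg (Ne.symm hne), if_true, mul_one,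
      mul_zero, add_zero, zero_add] at h2 h3
    rw [← h2] at h3
    have hc0' : c0 ≠ 0 := hc0 _
    rw [mul_comm] at h3
    exact mul_left_cancel₀ hc0' h3
  have he' : e = false := by
    cases e with
    | false => rfl
    | true =>
      exfalso
      have h1 : ω ^ 2 = ω := he
      rw [h.sq] at h1
      exact one_ne_zero (α := F) (by linear_combination h1)
  subst he'
  -- the scalar is 1
  have hc1 : c0 = 1 := by
    have h1 := hM.fm (Pi.single (Sum.inl 0) 1) (Pi.single (Sum.inr 0) 1)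
    rw [hMc, hMc, hall (Sum.inr 0), fm_smul_left, fm_smul_right] at h1
    have h2 : fm (Pi.single (Sum.inl 0) 1 : V4 F) (Pi.single (Sum.inr 0) 1) = 1 := by
      simp [fm, Pi.single_apply]
    rw [h2, mul_one] at h1
    have h3 : c0 * c0 = 1 := h1
    have h4 : (c0 + 1) * (c0 + 1) = 0 := by linear_combination h3 + (c0 + 1) * h.two
    have h5 := mul_self_eq_zero.1 h4
    linear_combination h5 - h.two
  let L : V4 F →ₗ[F] V4 F := { toFun := M, map_add' := hM.add, map_smul' := hM.smul }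
  have hL : L = LinearMap.id := by
    refine (Pi.basisFun F (Fin 2 ⊕ Fin 2)).ext fun i => ?_
    rw [Pi.basisFun_apply]
    show M (Pi.single i 1) = Pi.single i 1
    rw [hMc, hall, hc1, one_smul]
  ext1 v
  exact LinearMap.congr_fun hL v

theorem left_inj {r s : Cfsg.Spor.He × Equiv.Perm (V4 F)} (hr : r ∈ RR2 hF h) (hs : s ∈ RR2 hF h) (hrs : r.1 = s.1) : r = s := by
  have h1 : r * s⁻¹ ∈ RR2 hF h := (RR2 hF h).mul_mem hr ((RR2 hF h).inv_mem hs)
  obtain ⟨⟨e, he⟩, h2⟩ := RR2_pr hF h h1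
  have h3 : (r * s⁻¹).1 = 1 := by
    show r.1 * s.1⁻¹ = 1
    rw [hrs, mul_inv_cancel]
  rw [h3, map_one] at h2
  have h4 := eq_one_of_blk hF h he (by
    intro v
    ext b
    exact h2 v b)
  refine Prod.ext hrs ?_
  have h5 : r.2 * s.2⁻¹ = 1 := h4
  exact mul_inv_eq_one.1 h5

/-! ### orders -/

theorem card_G7 : 1958400 ≤ Nat.card (G7 hF h) := by
  have hc := coding4 hF h
  have ho := ord_eq
  unfold ordChk at ho
  obtain ⟨o0, ho⟩ := cond_tt ho
  obtain ⟨o1, ho⟩ := cond_tt ho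
  obtain ⟨o2, ho⟩ := cond_tt ho
  obtain ⟨o3, ho⟩ := cond_tt ho
  obtain ⟨o4, ho⟩ := cond_tt ho
  obtain ⟨f1, ho⟩ := cond_tt ho
  obtain ⟨f2, ho⟩ := cond_tt ho
  obtain ⟨f3, f4⟩ := cond_tt ho
  have hfix : ∀ {ls : List (List (ℕ × ℕ))} {bs : List ℕ}, fixChk ls bs = true → ∀ l ∈ ls, ∀ b ∈ bs, runF l b = b := by
    intro ls bs hf l hl b hb
    unfold fixChk at hf
    rw [List.all_eq_true] at hf
    have h1 := hf l hl
    rw [List.all_eq_true] at h1
    exact Nat.eq_of_beq_eq_true (h1 b hb)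
  have hg0 : ∀ l ∈ g7, okOps 8 l = true ∧ act hc l ∈ G7 hF h := fun l hl => ⟨okAll_mem ok_g7 l hl, act_mem_gen hc hl⟩
  have hw : ∀ (ws : List (List ℕ)), ∀ l ∈ ws.map (wOps g7), okOps 8 l = true ∧ act hc l ∈ G7 hF h := by
    intro ws l hl
    obtain ⟨w, _, rfl⟩ := List.mem_map.1 hl
    exact act_wOps_mem hc hg0 w
  have fx : ∀ {ls : List (List (ℕ × ℕ))} {b : ℕ} {K : Subgroup (Equiv.Perm (V4 F))}, b < 2 ^ 8 →
      (∀ l ∈ ls, okOps 8 l = true ∧ act hc l ∈ K) → (∀ l ∈ ls, runF l b = b) →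
      ∀ l ∈ ls, okOps 8 l = true ∧ act hc l ∈ stab K (dec4 ω b) := by
    intro ls b K hb h1 h2 l hl
    refine ⟨(h1 l hl).1, (h1 l hl).2, ?_⟩
    show act hc l (dec4 ω b) = dec4 ω b
    rw [act_dec hc (h1 l hl).1 hb, h2 l hl]
  have hrep : ∀ {ls : List (List (ℕ × ℕ))} {K : Subgroup (Equiv.Perm (V4 F))},
      (∀ l ∈ ls, okOps 8 l = true ∧ act hc l ∈ K) → ∀ l ∈ ls, okOps 8 l = true ∧ IsRep 8 (dec4 ω) K l :=
    fun h1 l hl => ⟨(h1 l hl).1, (act_mem hc (h1 l hl).1).1 (h1 l hl).2⟩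
  have g1 := fx (b := 1) (by norm_num) (hw wl1) (fun l hl => hfix f1 l hl 1 (by simp))
  have g2 := fx (b := 16) (by norm_num) (fx (b := 1) (by norm_num) (hw wl2) (fun l hl => hfix f2 l hl 1 (by simp)))
    (fun l hl => hfix f2 l hl 16 (by simp))
  have g3 := fx (b := 4) (by norm_num) (fx (b := 16) (by norm_num) (fx (b := 1) (by norm_num) (hw wl3)
    (fun l hl => hfix f3 l hl 1 (by simp))) (fun l hl => hfix f3 l hl 16 (by simp))) (fun l hl => hfix f3 l hl 4 (by simp))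
  have g4 := fx (b := 64) (by norm_num) (fx (b := 4) (by norm_num) (fx (b := 16) (by norm_num) (fx (b := 1) (by norm_num) (hw wl4)
    (fun l hl => hfix f4 l hl 1 (by simp))) (fun l hl => hfix f4 l hl 16 (by simp))) (fun l hl => hfix f4 l hl 4 (by simp)))
    (fun l hl => hfix f4 l hl 64 (by simp))
  have l0 := le_card_mul hc (hrep hg0) 3 (b := 1) (by norm_num)
  have l1 := le_card_mul hc (hrep g1) 8 (b := 16) (by norm_num)
  have l2 := le_card_mul hc (hrep g2) 4 (b := 4) (by norm_num)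
  have l3 := le_card_mul hc (hrep g3) 1 (b := 64) (by norm_num)
  have l4 := le_card hc (hrep g4) 1 (b := 2) (by norm_num)
  rw [← S0_def, Nat.eq_of_beq_eq_true o0] at l0
  have e1 : bfs 8 (wl1.map (wOps g7)) 8 (Nat.pow 2 16) = S1 := S1_def.symm
  have e2 : bfs 8 (wl2.map (wOps g7)) 4 (Nat.pow 2 4) = S2 := S2_def.symm
  have e3 : bfs 8 (wl3.map (wOps g7)) 1 (Nat.pow 2 64) = S3 := S3_def.symm
  have e4 : bfs 8 (wl4.map (wOps g7)) 1 (Nat.pow 2 2) = S4 := S4_def.symm
  rw [e1, Nat.eq_of_beq_eq_true o1] at l1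
  rw [e2, Nat.eq_of_beq_eq_true o2] at l2
  rw [e3, Nat.eq_of_beq_eq_true o3] at l3
  rw [e4, Nat.eq_of_beq_eq_true o4] at l4
  omega

end H10.HeSp
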