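import Cfsg.Agent.Lib.H10.HeSpData
import Cfsg.Agent.Lib.H10.F4Vec
import Cfsg.Agent.Lib.H35.NHe.Net

set_option autoImplicit false
set_option linter.unusedSectionVars false
set_option maxRecDepth 10000

/-! Kernel computations: the subgroup of index 2058 of He acts on 85 blocks as semilinear symplectic maps. -/

namespace H10.HeSp

open H10.BitPar H10.BitOrb H10.J3Comp H10.HeSpData H10.F4Vec H35.Net
open H35.TCHeA (Lt subs)

def g7 : List (List (ℕ × ℕ)) := [oa, oc, od, oe, of, op, oq]

/-- index of the block of a vector -/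
def ix (x : ℕ) : ℕ := Nat.mod (Nat.shiftRight IX (Nat.mul 8 x)) 256

/-- mask of the block of a vector -/
def bm (x : ℕ) : ℕ := Nat.mod (Nat.shiftRight BB (Nat.mul 2058 (ix x))) (Nat.pow 2 2058)

/-- representative of the line of a vector -/
def rx (x : ℕ) : ℕ := Nat.mod (Nat.shiftRight RR (Nat.mul 8 (ix x))) 256

/-- chunks of the list of representatives (small chunks keep the kernel caches small) -/
def ch (k : ℕ) : List ℕ := (RL.drop (8 * k)).take 8

noncomputable def pairChk (L : List ℕ) (w : List Lt) (l : List (ℕ × ℕ)) : Bool :=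
  L.all fun x => force (bm (runF l x)) fun W => Nat.beq (appF H35.NHe.net w W) (bm x)

noncomputable def pairsChk (L : List ℕ) : List (List Lt) → List (List (ℕ × ℕ)) → Bool :=
  List.rec (motive := fun _ => List (List (ℕ × ℕ)) → Bool) (fun _ => true)
    (fun w _ ih ls => List.rec (motive := fun _ => Bool) false (fun l ls _ => cond (pairChk L w l) (ih ls) false) ls)

theorem pe0 : pairsChk (ch 0) subs g7 = true := by decide +kernel
theorem pe1 : pairsChk (ch 1) subs g7 = true := by decide +kernel
theorem pe2 : pairsChk (ch 2) subs g7 = true := by decide +kernel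
theorem pe3 : pairsChk (ch 3) subs g7 = true := by decide +kernel
theorem pe4 : pairsChk (ch 4) subs g7 = true := by decide +kernel
theorem pe5 : pairsChk (ch 5) subs g7 = true := by decide +kernel
theorem pe6 : pairsChk (ch 6) subs g7 = true := by decide +kernel
theorem pe7 : pairsChk (ch 7) subs g7 = true := by decide +kernel
theorem pe8 : pairsChk (ch 8) subs g7 = true := by decide +kernel
theorem pe9 : pairsChk (ch 9) subs g7 = true := by decide +kernel
theorem pe10 : pairsChk (ch 10) subs g7 = true := by decide +kernel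

theorem mem_ch : (RL.all fun x => (List.range 11).any fun k => (ch k).any (Nat.beq x)) = true := by decide +kernel

/-- multiples of a vector -/
def mult (y x : ℕ) : Bool := cond (Nat.beq y x) true (cond (Nat.beq y (runF os x)) true (Nat.beq y (runF os (runF os x))))

def repChk : Bool := (List.range 256).all fun x => cond (Nat.beq x 0) (Nat.beq (bm x) 0)
  (cond (mult x (rx x)) (cond (RL.any (Nat.beq (rx x))) (Nat.beq (bm (runF os x)) (bm x)) false) false)

theorem rep_eq : repChk = true := by decide +kernel

def testL : List ℕ := [1, 4, 16, 64, 5, 17, 65, 9]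

def uniqChk : Bool := testL.all fun x => (List.range 256).all fun y =>
  cond (Nat.beq (bm y) (bm x)) (mult y x) true

theorem uniq_eq : uniqChk = true := by decide +kernel

theorem sa : chkS false oa = true := by decide +kernel
theorem sc' : chkS false oc = true := by decide +kernel
theorem sd : chkS false od = true := by decide +kernel
theorem se : chkS false oe = true := by decide +kernel
theorem sf : chkS false of = true := by decide +kernel
theorem sp : chkS true op = true := by decide +kernel
theorem sq : chkS false oq = true := by decide +kernel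

def gl1 : List (List (ℕ × ℕ)) := wl1.map (wOps g7)
def gl2 : List (List (ℕ × ℕ)) := wl2.map (wOps g7)
def gl3 : List (List (ℕ × ℕ)) := wl3.map (wOps g7)
def gl4 : List (List (ℕ × ℕ)) := wl4.map (wOps g7)

def S0 : ℕ := bfs 8 g7 3 (Nat.pow 2 1)
def S1 : ℕ := bfs 8 gl1 8 (Nat.pow 2 16)
def S2 : ℕ := bfs 8 gl2 4 (Nat.pow 2 4)
def S3 : ℕ := bfs 8 gl3 1 (Nat.pow 2 64)
def S4 : ℕ := bfs 8 gl4 1 (Nat.pow 2 2)

def fixChk (ls : List (List (ℕ × ℕ))) (bs : List ℕ) : Bool := ls.all fun l => bs.all fun b => Nat.beq (runF l b) b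

def ordChk : Bool :=
  cond (Nat.beq (pc 8 S0) 255) (cond (Nat.beq (pc 8 S1) 64) (cond (Nat.beq (pc 8 S2) 15) (cond (Nat.beq (pc 8 S3) 4)
  (cond (Nat.beq (pc 8 S4) 2) (cond (fixChk gl1 [1]) (cond (fixChk gl2 [1, 16]) (cond (fixChk gl3 [1, 16, 4])
  (fixChk gl4 [1, 16, 4, 64]) false) false) false) false) false) false) false) false

theorem ord_eq : ordChk = true := by decide +kernel
theorem ok_g7 : okAll 8 g7 = true := by decide +kernel

theorem S0_def : S0 = bfs 8 g7 3 (Nat.pow 2 1) := rfl
theorem S1_def : S1 = bfs 8 gl1 8 (Nat.pow 2 16) := rfl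
theorem S2_def : S2 = bfs 8 gl2 4 (Nat.pow 2 4) := rfl
theorem S3_def : S3 = bfs 8 gl3 1 (Nat.pow 2 64) := rfl
theorem S4_def : S4 = bfs 8 gl4 1 (Nat.pow 2 2) := rfl

attribute [irreducible] S0 S1 S2 S3 S4

end H10.HeSp
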