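import Cfsg.Agent.Lib.H10.HeSp
import Cfsg.Agent.Lib.H6.SympCard

set_option autoImplicit false
set_option linter.unusedSectionVars false

/-! The subgroup of index 2058 of He has a subgroup of index 2 isomorphic to `Sp4(4)`. -/

namespace H10.HeSp

open H10.BitPar H10.BitOrb H10.J3Comp H10.J3Order H10.J3Model H10.HeSpData H10.F4Vec H35.Net H35.HeMain
open H35.TCHeA (Lt subs)

theorem index_HS_ge : 2058 ≤ HS.index := by
  classical
  have := fin
  choose g hg using fun c : Fin 2058 => htr c.1 c.2
  have hinj : Function.Injective (fun c : Fin 2058 => (QuotientGroup.mk (g c) : Cfsg.Spor.He ⧸ HS)) := by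
    intro c d hcd
    have h1 : (g c)⁻¹ * g d ∈ HS := QuotientGroup.eq.1 hcd
    have h2 := HS_fix _ h1
    rw [map_mul, map_inv, Equiv.Perm.mul_apply, Equiv.Perm.inv_eq_iff_eq, hg, hg] at h2
    exact Fin.ext h2.symm
  have h1 := Nat.card_le_card_of_injective _ hinj
  rw [Nat.card_eq_fintype_card, Fintype.card_fin] at h1
  exact h1

theorem card_HS_le : Nat.card HS ≤ 1958400 := by
  have := fin
  have h1 := HS.index_mul_card
  rw [card_inj.1] at h1
  have h2 := index_HS_ge
  have h3 : 2058 * Nat.card HS ≤ 2058 * 1958400 := by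
    calc 2058 * Nat.card HS ≤ HS.index * Nat.card HS := Nat.mul_le_mul_right _ h2
      _ = 2058 * 1958400 := by rw [h1]
  exact Nat.le_of_mul_le_mul_left h3 (by norm_num)

section
variable {F : Type} [Field F] [Fintype F] (hF : Fintype.card F = 4) {ω : F} (h : Good ω)

/-- projections of the group of compatible pairs -/
noncomputable def toHS : RR2 hF h →* HS :=
  ((MonoidHom.fst Cfsg.Spor.He (Equiv.Perm (V4 F))).comp (RR2 hF h).subtype).codRestrict HS fun r => RR2_left hF h r.2

noncomputable def toG7 : RR2 hF h →* G7 hF h :=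
  ((MonoidHom.snd Cfsg.Spor.He (Equiv.Perm (V4 F))).comp (RR2 hF h).subtype).codRestrict (G7 hF h) fun r => RR2_right hF h r.2

theorem toHS_bij : Function.Bijective (toHS hF h) := by
  constructor
  · intro r s hrs
    exact Subtype.ext (left_inj hF h r.2 s.2 (congrArg Subtype.val hrs))
  · rintro ⟨x, hx⟩
    obtain ⟨r, hr, rfl⟩ := left_surj hF h hx
    exact ⟨⟨r, hr⟩, rfl⟩

theorem toG7_surj : Function.Surjective (toG7 hF h) := by
  rintro ⟨x, hx⟩
  obtain ⟨r, hr, rfl⟩ := right_surj hF h hx
  exact ⟨⟨r, hr⟩, rfl⟩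

theorem card_RR2 : Nat.card (RR2 hF h) = Nat.card HS := Nat.card_congr (Equiv.ofBijective _ (toHS_bij hF h))

theorem toG7_bij : Function.Bijective (toG7 hF h) ∧ Nat.card (G7 hF h) = 1958400 ∧ Nat.card HS = 1958400 := by
  have := fin
  have hfin : Finite (RR2 hF h) := Finite.of_injective _ (toHS_bij hF h).1
  have h1 := card_G7 hF h
  have h2 := card_HS_le
  have h3 := Nat.card_le_card_of_surjective _ (toG7_surj hF h)
  rw [card_RR2] at h3
  have h4 : Nat.card (G7 hF h) = 1958400 := by omega
  have h5 : Nat.card HS = 1958400 := by omega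
  refine ⟨(Nat.bijective_iff_surjective_and_card _).2 ⟨toG7_surj hF h, ?_⟩, h4, h5⟩
  rw [card_RR2, h4, h5]

/-- the isomorphism -/
noncomputable def isoHS : HS ≃* G7 hF h :=
  (MulEquiv.ofBijective _ (toHS_bij hF h)).symm.trans (MulEquiv.ofBijective _ (toG7_bij hF h).1)

theorem slin_G7 {M : Equiv.Perm (V4 F)} (hM : M ∈ G7 hF h) : ∃ e, SLin M e := by
  obtain ⟨r, hr, rfl⟩ := right_surj hF h hM
  exact (RR2_pr hF h hr).1

include h in
/-- the type of a semilinear map is unique -/
theorem not_both {M : Equiv.Perm (V4 F)} (h0 : SLin M false) (h1 : SLin M true) : False := by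
  have e1 := h0.smul ω (Pi.single (Sum.inl 0) 1)
  have e2 := h1.smul ω (Pi.single (Sum.inl 0) 1)
  have e3 : ω • M (Pi.single (Sum.inl 0) 1) = (ω ^ 2) • M (Pi.single (Sum.inl 0) 1) := by
    have e1' : M (ω • Pi.single (Sum.inl 0) 1) = ω • M (Pi.single (Sum.inl 0) 1) := e1
    have e2' : M (ω • Pi.single (Sum.inl 0) 1) = (ω ^ 2) • M (Pi.single (Sum.inl 0) 1) := e2
    rw [← e1', e2']
  have e4 : M (Pi.single (Sum.inl 0) 1) = 0 := by
    have e5 : (ω - ω ^ 2) • M (Pi.single (Sum.inl 0) 1) = 0 := by rw [sub_smul, e3, sub_self]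
    rcases smul_eq_zero.1 e5 with e6 | e6
    · exfalso
      rw [h.sq] at e6
      exact one_ne_zero (α := F) (by linear_combination -e6)
    · exact e6
  have e7 : M 0 = 0 := by
    have h5 : M ((0 : F) • (0 : V4 F)) = (0 : F) • M 0 := h0.smul 0 0
    rw [zero_smul, zero_smul] at h5
    exact h5
  have e8 := M.injective (e4.trans e7.symm)
  have e9 := congrFun e8 (Sum.inl 0)
  simp at e9

/-- the linear elements -/
noncomputable def K0 : Subgroup (G7 hF h) where
  carrier := {M | SLin M.1 false}
  one_mem' := SLin.one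
  mul_mem' := by
    intro a b ha hb
    exact SLin.mul h (e := false) (e' := false) ha hb
  inv_mem' := by
    intro a ha
    exact SLin.inv h ha

theorem index_K0 : (K0 hF h).index = 2 := by
  rw [Subgroup.index_eq_two_iff]
  have hp : act (coding4 hF h) op ∈ G7 hF h := act_mem_gen _ (by simp [g7])
  have hps : SLin (act (coding4 hF h) op) true := slin_of_chk hF h sp
  refine ⟨⟨_, hp⟩, ?_⟩
  rintro ⟨b, hb⟩
  obtain ⟨e, he⟩ := slin_G7 hF h hb
  cases e with
  | false =>
    right
    refine ⟨he, fun hx => ?_⟩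
    exact not_both h hx (SLin.mul h he hps)
  | true =>
    left
    refine ⟨SLin.mul h he hps, fun hx => ?_⟩
    exact not_both h hx he

include hF in
theorem card_Sp : Nat.card (Matrix.symplecticGroup (Fin 2) F) = 979200 := by
  rw [H6.SympCard.card_symplecticGroup, Nat.card_eq_fintype_card, hF, Fintype.card_fin, Finset.prod_range_succ,
    Finset.prod_range_succ, Finset.prod_range_zero]
  norm_num

theorem iso_K0 : Nonempty (K0 hF h ≃* Matrix.symplecticGroup (Fin 2) F) := by
  have hfin : Finite (Matrix.symplecticGroup (Fin 2) F) := by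
    refine Nat.finite_of_card_ne_zero ?_
    rw [card_Sp hF]; norm_num
  have hfinR : Finite (spPerm F).range := Finite.of_surjective _ (spPerm F).rangeRestrict_surjective
  let A : Subgroup (Equiv.Perm (V4 F)) := (K0 hF h).map (G7 hF h).subtype
  have hA : A ≤ (spPerm F).range := by
    rintro _ ⟨M, hM, rfl⟩
    exact mem_spPerm h hM
  have eA : K0 hF h ≃* A := (K0 hF h).equivMapOfInjective _ (G7 hF h).subtype_injective
  have eS : Matrix.symplecticGroup (Fin 2) F ≃* (spPerm F).range := MonoidHom.ofInjective spPerm_injective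
  have hcA : Nat.card A = 979200 := by
    rw [← Nat.card_congr eA.toEquiv]
    have h1 := (K0 hF h).index_mul_card
    rw [index_K0, (toG7_bij hF h).2.1] at h1
    omega
  have hcS : Nat.card (spPerm F).range = 979200 := by
    rw [← Nat.card_congr eS.toEquiv, card_Sp hF]
  have hEq : A = (spPerm F).range := Subgroup.eq_of_le_of_card_ge hA (by rw [hcA, hcS])
  exact ⟨(eA.trans (MulEquiv.subgroupCongr hEq)).trans eS.symm⟩

end

theorem main : ∃ (N : Subgroup HS) (K : Type) (_ : Field K) (_ : Fintype K), N.Normal ∧ N.index = 2 ∧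
    Fintype.card K = 4 ∧ Nonempty (N ≃* Matrix.symplecticGroup (Fin 2) K) := by
  obtain ⟨F, i1, i2, ω, hF, hω⟩ := H10.J3Unitary.exists_field
  have h : Good ω := good hF hω
  have hidx : ((K0 hF h).comap (isoHS hF h).toMonoidHom).index = 2 := by
    rw [Subgroup.index_comap_of_surjective _ (isoHS hF h).surjective, index_K0]
  refine ⟨(K0 hF h).comap (isoHS hF h).toMonoidHom, F, i1, i2, Subgroup.normal_of_index_eq_two hidx, hidx, hF, ?_⟩
  obtain ⟨e⟩ := iso_K0 hF h
  have e1 : ((K0 hF h).comap (isoHS hF h).toMonoidHom).map (isoHS hF h).toMonoidHom = K0 hF h :=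
    Subgroup.map_comap_eq_self_of_surjective (isoHS hF h).surjective _
  exact ⟨((isoHS hF h).subgroupMap _).trans ((MulEquiv.subgroupCongr e1).trans e)⟩

end H10.HeSp
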