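import Cfsg.Agent.Lib.H10.HeSpMain
import Cfsg.Agent.Lib.H10.PermReal
import Cfsg.Prelude.Def_SporadicB
import Cfsg.Prelude.Def_Sporadic

set_option autoImplicit false

/-! The subgroup of the statement, and the permutation realization of degree 2058. -/

namespace H10.HeSp

open H35.HeMain H35.TCHeA

theorem map_eq_HS : ((Subgroup.closure ({Cfsg.Spor.He.a, Cfsg.Spor.He.c, Cfsg.Spor.He.d, Cfsg.Spor.He.e, Cfsg.Spor.He.f, (Cfsg.Spor.He.a * Cfsg.Spor.He.b) ^ 2, (Cfsg.Spor.He.b * Cfsg.Spor.He.c * Cfsg.Spor.He.d * Cfsg.Spor.He.e) ^ 7} : Set (FreeGroup Cfsg.Spor.He.Gen))).map (PresentedGroup.mk (Cfsg.Spor.coxRelators Cfsg.Spor.He.edges ∪ {r | r ∈ Cfsg.Spor.He.extra}))) = H35.HeMain.HS := by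
  rw [MonoidHom.map_closure]
  unfold HS
  congr 1
  have ea : PresentedGroup.mk (Cfsg.Spor.coxRelators Cfsg.Spor.He.edges ∪ {r | r ∈ Cfsg.Spor.He.extra}) Cfsg.Spor.He.a = gP .a := rfl
  have eb : PresentedGroup.mk (Cfsg.Spor.coxRelators Cfsg.Spor.He.edges ∪ {r | r ∈ Cfsg.Spor.He.extra}) Cfsg.Spor.He.b = gP .b := rfl
  have ec : PresentedGroup.mk (Cfsg.Spor.coxRelators Cfsg.Spor.He.edges ∪ {r | r ∈ Cfsg.Spor.He.extra}) Cfsg.Spor.He.c = gP .c := rfl
  have ed : PresentedGroup.mk (Cfsg.Spor.coxRelators Cfsg.Spor.He.edges ∪ {r | r ∈ Cfsg.Spor.He.extra}) Cfsg.Spor.He.d = gP .d := rfl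
  have ee : PresentedGroup.mk (Cfsg.Spor.coxRelators Cfsg.Spor.He.edges ∪ {r | r ∈ Cfsg.Spor.He.extra}) Cfsg.Spor.He.e = gP .e := rfl
  have ef : PresentedGroup.mk (Cfsg.Spor.coxRelators Cfsg.Spor.He.edges ∪ {r | r ∈ Cfsg.Spor.He.extra}) Cfsg.Spor.He.f = gP .f := rfl
  have e1 : (gP .a * gP .b) ^ 2 = ([Lt.a, .b, .a, .b].map gP).prod := by
    simp [pow_succ, mul_assoc]
  have e2 : (gP .b * gP .c * gP .d * gP .e) ^ 7 = ([Lt.b, .c, .d, .e, .b, .c, .d, .e, .b, .c, .d, .e, .b, .c, .d, .e, .b, .c, .d, .e,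
      .b, .c, .d, .e, .b, .c, .d, .e].map gP).prod := by
    simp [pow_succ, mul_assoc]
  simp only [Set.image_insert_eq, Set.image_singleton, map_pow, map_mul, ea, eb, ec, ed, ee, ef]
  rw [e1, e2]
  ext y
  simp only [subs, List.mem_cons, List.mem_nil_iff, or_false, Set.mem_insert_iff, Set.mem_singleton_iff, Set.mem_ofPred_eq]
  constructor
  · rintro (rfl | rfl | rfl | rfl | rfl | rfl | rfl)
    · exact ⟨[.a], by simp, by simp⟩
    · exact ⟨[.c], by simp, by simp⟩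
    · exact ⟨[.d], by simp, by simp⟩
    · exact ⟨[.e], by simp, by simp⟩
    · exact ⟨[.f], by simp, by simp⟩
    · exact ⟨[.a, .b, .a, .b], by simp, rfl⟩
    · exact ⟨[.b, .c, .d, .e, .b, .c, .d, .e, .b, .c, .d, .e, .b, .c, .d, .e, .b, .c, .d, .e,
      .b, .c, .d, .e, .b, .c, .d, .e], by simp, rfl⟩
  · rintro ⟨w, rfl | rfl | rfl | rfl | rfl | rfl | rfl, rfl⟩
    · simp
    · simp
    · simp
    · simp
    · simp
    · simp only [true_or, or_true]
    · simp only [or_true]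

theorem index_HS : HS.index = 2058 := by
  obtain ⟨F, i1, i2, ω, hF, hω⟩ := H10.J3Unitary.exists_field
  have h1 := HS.index_mul_card
  rw [card_inj.1, (toG7_bij hF (H10.J3Model.good hF hω)).2.2] at h1
  have h2 : HS.index * 1958400 = 2058 * 1958400 := by rw [h1]
  exact Nat.eq_of_mul_eq_mul_right (by norm_num) h2

theorem realization : ∃ H : Subgroup (Equiv.Perm (Fin 2058)), Cfsg.IsHe H ∧ MulAction.IsPretransitive H (Fin 2058) ∧ ∃ (F : Type) (_ : Field F) (_ : Fintype F), Fintype.card F = 4 ∧ ∃ N : Subgroup (MulAction.stabilizer H (0 : Fin 2058)), N.index = 2 ∧ Nonempty (N ≃* Matrix.symplecticGroup (Fin 2) F) := by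
  have hs := H35.HeMain.simple
  have hfin := H35.HeMain.fin
  have htop : HS ≠ ⊤ := by
    intro h
    have := index_HS
    rw [h, Subgroup.index_top] at this
    norm_num at this
  obtain ⟨H, e, htr, hst⟩ := H10.PermReal.exists_perm HS index_HS htop
  obtain ⟨es⟩ := H10.PermReal.stabilizer_equiv e hst
  obtain ⟨N, K, i1, i2, -, hN, hK, ⟨eN⟩⟩ := main
  refine ⟨H, ⟨?_, ?_⟩, htr, K, i1, i2, hK, N.map es.toMonoidHom, ?_, ⟨(es.subgroupMap N).symm.trans eN⟩⟩
  · exact e.isSimpleGroup_congr.1 hs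
  · rw [← Nat.card_congr e.toEquiv]; exact card_inj.1
  · have := Subgroup.index_map_of_bijective (f := es.toMonoidHom) es.bijective N
    rw [this, hN]

end H10.HeSp
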