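import Cfsg.Agent.S0428
import Cfsg.Agent.Lib.H10.SteinerAut

set_option autoImplicit false
open Cfsg Finset

/-! Isomorphic set systems have isomorphic point-block graphs. -/

namespace H10.PBIso

variable {α β : Type*} {B : Set (Finset α)} {B' : Set (Finset β)}

/-- the equivalence between blocks -/
noncomputable def blockEquiv (e : α ≃ β) (he : ∀ b, b ∈ B ↔ b.map e.toEmbedding ∈ B') : B ≃ B' where
  toFun b := ⟨b.1.map e.toEmbedding, (he b.1).1 b.2⟩
  invFun b := ⟨b.1.map e.symm.toEmbedding, (he _).2 (by
    rw [Finset.map_map]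
    have : (e.symm.toEmbedding.trans e.toEmbedding) = Function.Embedding.refl β := by
      ext x; simp
    rw [this, Finset.map_refl]; exact b.2)⟩
  left_inv b := by
    apply Subtype.ext
    show (b.1.map e.toEmbedding).map e.symm.toEmbedding = b.1
    rw [Finset.map_map]
    have : (e.toEmbedding.trans e.symm.toEmbedding) = Function.Embedding.refl α := by
      ext x; simp
    rw [this, Finset.map_refl]
  right_inv b := by
    apply Subtype.ext
    show (b.1.map e.symm.toEmbedding).map e.toEmbedding = b.1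
    rw [Finset.map_map]
    have : (e.symm.toEmbedding.trans e.toEmbedding) = Function.Embedding.refl β := by
      ext x; simp
    rw [this, Finset.map_refl]

theorem blockEquiv_coe (e : α ≃ β) (he : ∀ b, b ∈ B ↔ b.map e.toEmbedding ∈ B') (b : B) :
    ((blockEquiv e he b : B') : Finset β) = (b : Finset α).map e.toEmbedding := rfl

/-- the equivalence between vertices -/
noncomputable def vEquiv (e : α ≃ β) (he : ∀ b, b ∈ B ↔ b.map e.toEmbedding ∈ B') : Option (α ⊕ B) ≃ Option (β ⊕ B') :=
  Equiv.optionCongr (Equiv.sumCongr e (blockEquiv e he))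

theorem vEquiv_none (e : α ≃ β) (he : ∀ b, b ∈ B ↔ b.map e.toEmbedding ∈ B') : vEquiv e he none = none := rfl
theorem vEquiv_inl (e : α ≃ β) (he : ∀ b, b ∈ B ↔ b.map e.toEmbedding ∈ B') (a : α) :
    vEquiv e he (some (Sum.inl a)) = some (Sum.inl (e a)) := rfl
theorem vEquiv_inr (e : α ≃ β) (he : ∀ b, b ∈ B ↔ b.map e.toEmbedding ∈ B') (b : B) :
    vEquiv e he (some (Sum.inr b)) = some (Sum.inr (blockEquiv e he b)) := rfl

open Cfsg.Agent.S0428 in
/-- the isomorphism of point-block graphs induced by an isomorphism of set systems -/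
noncomputable def graphIso (e : α ≃ β) (he : ∀ b, b ∈ B ↔ b.map e.toEmbedding ∈ B') (hne : ∀ b ∈ B, b.Nonempty) :
    pointBlockGraph B ≃g pointBlockGraph B' where
  toEquiv := vEquiv e he
  map_rel_iff' := by
    classical
    have hne' : ∀ b ∈ B', b.Nonempty := by
      intro b hb
      obtain ⟨c, rfl⟩ : ∃ c : B, ((blockEquiv e he c : B') : Finset β) = b :=
        ⟨(blockEquiv e he).symm ⟨b, hb⟩, by rw [Equiv.apply_symm_apply]⟩
      rw [blockEquiv_coe, Finset.map_nonempty]
      exact hne c c.2
    intro p q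
    rcases p with _ | a | b <;> rcases q with _ | a' | b' <;>
      simp only [vEquiv_none, vEquiv_inl, vEquiv_inr]
    · exact iff_of_false adj_none_none adj_none_none
    · exact iff_of_true (adj_none_inl _) (adj_none_inl _)
    · exact iff_of_false (adj_none_inr _) (adj_none_inr _)
    · exact iff_of_true (adj_none_inl _).symm (adj_none_inl _).symm
    · exact iff_of_false (adj_inl_inl _ _) (adj_inl_inl _ _)
    · rw [adj_inl_inr, adj_inl_inr, blockEquiv_coe, Finset.mem_map_equiv, Equiv.symm_apply_apply]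
    · exact iff_of_false (fun h => adj_none_inr _ h.symm) (fun h => adj_none_inr _ h.symm)
    · rw [SimpleGraph.adj_comm, adj_inl_inr, SimpleGraph.adj_comm, adj_inl_inr, blockEquiv_coe, Finset.mem_map_equiv,
        Equiv.symm_apply_apply]
    · rw [adj_inr_inr hne, adj_inr_inr hne', blockEquiv_coe, blockEquiv_coe, Finset.disjoint_map]

theorem nonempty_of_card {t k : ℕ} (hk : 0 < k) {α : Type*} {B : Set (Finset α)} (hB : IsSteinerSystem t k B) :
    ∀ b ∈ B, b.Nonempty := by
  intro b hb
  have h := hB.1 b hb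
  rw [← Finset.card_pos, h]; exact hk

theorem exists_equiv_of_setSystemIso [DecidableEq β] (h : SetSystemIso B B') :
    ∃ e : α ≃ β, ∀ b, b ∈ B ↔ b.map e.toEmbedding ∈ B' := by
  obtain ⟨e, he⟩ := h
  refine ⟨e, fun b => ?_⟩
  have h1 : ∀ c : Finset α, c.image e = c.map e.toEmbedding := by
    intro c; rw [Finset.map_eq_image]; rfl
  rw [← he]
  constructor
  · intro hb
    exact ⟨b, hb, h1 b⟩
  · rintro ⟨c, hc, hcb⟩
    simp only [h1] at hcb
    rw [← Finset.map_injective _ hcb]; exact hc

theorem nonempty_graphIso [DecidableEq β] (h : SetSystemIso B B') (hne : ∀ b ∈ B, b.Nonempty) :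
    Nonempty (pointBlockGraph B ≃g pointBlockGraph B') := by
  obtain ⟨e, he⟩ := exists_equiv_of_setSystemIso h
  exact ⟨graphIso e he hne⟩

end H10.PBIso
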